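import Mathlib
import Cfsg.Prelude.Def_Local
import Cfsg.Prelude.Def_Balance
import Cfsg.Agent.Lib.Helper31.ZBal1
import Cfsg.Agent.Lib.Helper31.LBalance2
import Cfsg.Agent.Lib.Helper23.Transport

/-!
`2`-components of centralizers of involutions in a group whose core-free quotient has the
`B`-property (helper31).

`isComponent_map_mk_of_hasBProperty`: let `Γ` be a finite group such that `Γ / O(Γ)` has the
`B`-property, `t` an involution of `Γ` and `J` a `2`-component of `C_Γ(t)`. Then the image of `J`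
in `Γ / O(Γ)` is a component of the centralizer of the image of `t`, and `[J, E] ≤ O(Γ)` for every
`J`-invariant subgroup `E` of odd order of `C_Γ(t)`.
-/

set_option autoImplicit false

namespace Cfsg.Agent.Lib.Helper31

open Cfsg
open scoped commutatorElement

universe u

section BSection

/-- Passing to a subgroup `C` containing `J`. -/
theorem IsPCompLike.subgroupOf_of_le {Y : Type u} [Group Y] {p : ℕ} {M J : Subgroup Y}
    (C : Subgroup Y) (hJC : J ≤ C) (h : IsPCompLike p M J) :
    IsPCompLike p (M.subgroupOf C) (J.subgroupOf C) := by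
  obtain ⟨hJN, hsn, hperf, hq, hgen⟩ := h
  refine ⟨?_, isSubnormal_subgroupOf_subgroupOf C hsn, subgroupOf_perfect hJC hperf, ?_,
    hgen.subgroupOf hJC⟩
  · intro x hx
    exact Subgroup.mem_subgroupOf.mpr (hJN (Subgroup.mem_subgroupOf.mp hx))
  · exact isQuasisimple_quot_of_mulEquiv p (Subgroup.subgroupOfEquivOfLe hJC) hq

/-- The normalizer of a subgroup of order `2` is the centralizer of its generator. -/
theorem normalizer_zpowers_eq_centralizer_of_orderOf_two {Γ : Type*} [Group Γ] {t : Γ}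
    (ht : orderOf t = 2) :
    Subgroup.normalizer ((Subgroup.zpowers t : Subgroup Γ) : Set Γ) =
      Subgroup.centralizer ({t} : Set Γ) := by
  ext g
  rw [Subgroup.mem_normalizer_iff, Subgroup.mem_centralizer_iff]
  constructor
  · intro h y hy
    rw [Set.mem_singleton_iff] at hy
    rw [hy]
    have h1 : g * t * g⁻¹ ∈ Subgroup.zpowers t := (h t).mp (Subgroup.mem_zpowers t)
    obtain ⟨k, hk⟩ := Subgroup.mem_zpowers_iff.mp h1
    have hk2 : t ^ (k % 2) = g * t * g⁻¹ := by
      rw [← hk]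
      simpa [ht] using zpow_mod_orderOf t k
    rcases Int.emod_two_eq_zero_or_one k with h0 | h0
    · exfalso
      rw [h0, zpow_zero] at hk2
      have ht1 : t = 1 := by
        have e : t = g⁻¹ * (g * t * g⁻¹) * g := by group
        rw [e, ← hk2]
        group
      rw [ht1, orderOf_one] at ht
      omega
    · rw [h0, zpow_one] at hk2
      calc t * g = (g * t * g⁻¹) * g := by rw [← hk2]
        _ = g * t := by group
  · intro h x
    have hgt : t * g = g * t := h t rfl
    have hcomm : ∀ z ∈ Subgroup.zpowers t, g * z * g⁻¹ = z := by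
      intro z hz
      obtain ⟨k, rfl⟩ := Subgroup.mem_zpowers_iff.mp hz
      have hc : Commute g (t ^ k) := Commute.zpow_right (show Commute g t from hgt.symm) k
      rw [hc.eq]
      group
    constructor
    · intro hx
      rw [hcomm x hx]
      exact hx
    · intro hx
      have h2 := hcomm _ hx
      have h3 : g * x * g⁻¹ = x := by
        have e : g * x * g⁻¹ = g⁻¹ * (g * (g * x * g⁻¹) * g⁻¹) * g := by group
        rw [e, h2]
        group
      rw [← h3]
      exact hx

/-- The image of an involution modulo a normal subgroup of odd order is an involution. -/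
theorem orderOf_mk_eq_two {Γ : Type*} [Group Γ] [Finite Γ] (N : Subgroup Γ) [N.Normal]
    (hN : (Nat.card N).Coprime 2) {t : Γ} (ht : orderOf t = 2) :
    orderOf (QuotientGroup.mk' N t) = 2 := by
  apply orderOf_eq_prime
  · rw [← map_pow, ← ht, pow_orderOf_eq_one, map_one]
  · intro h
    rw [QuotientGroup.mk'_apply, QuotientGroup.eq_one_iff] at h
    have h1 := Subgroup.orderOf_dvd_natCard _ h
    rw [ht] at h1
    exact absurd (Nat.Coprime.eq_one_of_dvd hN.symm h1) (by norm_num)

/-- Coprime action: the centralizer of an involution maps onto the centralizer of its image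
modulo a normal subgroup of odd order. -/
theorem map_centralizer_singleton_mk_of_odd {Γ : Type*} [Group Γ] [Finite Γ] (N : Subgroup Γ)
    [N.Normal] (hN : (Nat.card N).Coprime 2) {t : Γ} (ht : orderOf t = 2) :
    (Subgroup.centralizer ({t} : Set Γ)).map (QuotientGroup.mk' N) =
      Subgroup.centralizer ({QuotientGroup.mk' N t} : Set (Γ ⧸ N)) := by
  have hp : IsPGroup 2 (Subgroup.zpowers t) := by
    apply IsPGroup.of_card (n := 1)
    rw [Nat.card_zpowers, ht, pow_one]
  have h1 := Cfsg.Agent.Lib.Helper22.normalizer_map_mk_of_coprime N hN (Subgroup.zpowers t) hp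
  rw [MonoidHom.map_zpowers, normalizer_zpowers_eq_centralizer_of_orderOf_two ht,
    normalizer_zpowers_eq_centralizer_of_orderOf_two (orderOf_mk_eq_two N hN ht)] at h1
  exact h1

/-- A `2`-component of `C` is a component of `C` as soon as `L_{2'}(C)` centralizes `O(C)`. -/
theorem isComponent_subgroupOf_of_commutator_eq_bot {Γ : Type u} [Group Γ] [Finite Γ]
    {C J : Subgroup Γ} (hJ : IsPCompLike 2 C J)
    (hB : ⁅Cfsg.pLayer 2 ↥C, Cfsg.pPrimeCore 2 ↥C⁆ = ⊥) :
    Cfsg.IsComponent (J.subgroupOf C) := by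
  have hK := hJ.isPComponent
  refine ⟨hK.1, (Cfsg.Agent.Lib.Helper22.IsPComponent.isQuasisimple_iff hK).mpr ?_⟩
  rw [eq_bot_iff, ← hB]
  have h1 : J.subgroupOf C ≤ Cfsg.pLayer 2 ↥C := by
    show J.subgroupOf C ≤ sSup {K : Subgroup ↥C | Cfsg.IsPComponent 2 K}
    exact le_sSup hK
  exact Subgroup.commutator_mono h1
    (Cfsg.Agent.Lib.Helper22.pPrimeCore_map_subtype_le_of_subnormal 2 hK.1)

/-- A component `J` of `C` generated by `2`-elements centralizes every `J`-invariant subgroup of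
odd order of `C`. -/
theorem commute_of_isComponent_subgroupOf_of_odd {Γ : Type u} [Group Γ] [Finite Γ]
    {C J E : Subgroup Γ} (hJC : J ≤ C) (hcomp : Cfsg.IsComponent (J.subgroupOf C))
    (hgen : GenP 2 J) (hne : J ≠ ⊥) (hEC : E ≤ C)
    (hnorm : J ≤ Subgroup.normalizer (E : Set Γ)) (hodd : Odd (Nat.card E)) :
    ∀ j ∈ J, ∀ e ∈ E, j * e = e * j := by
  obtain ⟨T, hTdef⟩ : ∃ T : Subgroup Γ, T = J ⊔ E := ⟨_, rfl⟩
  have hJT : J ≤ T := hTdef ▸ le_sup_left
  have hET : E ≤ T := hTdef ▸ le_sup_right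
  have hTC : T ≤ C := hTdef ▸ sup_le hJC hEC
  have hsn : (J.subgroupOf T).IsSubnormal := isSubnormal_subgroupOf_of_le hTC hcomp.1
  have hq : Cfsg.IsQuasisimple ↥(J.subgroupOf T) :=
    Cfsg.Agent.Lib.Helper22.isQuasisimple_of_mulEquiv
      ((Subgroup.subgroupOfEquivOfLe hJT).trans (Subgroup.subgroupOfEquivOfLe hJC).symm) hcomp.2
  have hKT : Cfsg.IsComponent (J.subgroupOf T) := ⟨hsn, hq⟩
  have hTn : T ≤ Subgroup.normalizer (E : Set Γ) := hTdef ▸ sup_le hnorm Subgroup.le_normalizer
  have hEn : (E.subgroupOf T).Normal :=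
    (Subgroup.normal_subgroupOf_iff_le_normalizer hET).mpr hTn
  rcases Cfsg.Agent.Lib.Helper22.component_le_or_commute hKT hEn.isSubnormal with h | h
  · exfalso
    apply hne
    apply eq_bot_of_genP_of_coprime hgen
    have hJE : J ≤ E := by
      intro j hj
      exact Subgroup.mem_subgroupOf.mp
        (h (show (⟨j, hJT hj⟩ : ↥T) ∈ J.subgroupOf T from Subgroup.mem_subgroupOf.mpr hj))
    exact Nat.Coprime.coprime_dvd_left (Subgroup.card_dvd_of_le hJE)
      (Nat.coprime_two_right.mpr hodd)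
  · intro j hj e he
    have h1 := Cfsg.Agent.Lib.Helper22.comm_of_commutator_eq_bot h ⟨j, hJT hj⟩
      (Subgroup.mem_subgroupOf.mpr hj) ⟨e, hET he⟩ (Subgroup.mem_subgroupOf.mpr he)
    exact congrArg Subtype.val h1

/-- If `F*(G)` is a non-abelian simple group, no involution of `G` is central. -/
theorem centralizer_singleton_ne_top_of_simple_fstar {G : Type*} [Group G] [Finite G]
    (hF : IsSimpleGroup ↥(Cfsg.generalizedFittingSubgroup G))
    (hF' : ¬ IsMulCommutative ↥(Cfsg.generalizedFittingSubgroup G)) {y : G}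
    (hy : orderOf y = 2) : Subgroup.centralizer ({y} : Set G) ≠ ⊤ := by
  intro htop
  have hyc : ∀ g : G, g * y = y * g := by
    intro g
    have hg : g ∈ Subgroup.centralizer ({y} : Set G) := htop ▸ Subgroup.mem_top g
    exact (Subgroup.mem_centralizer_iff.mp hg y rfl).symm
  have hyF : y ∈ Cfsg.generalizedFittingSubgroup G := by
    apply Cfsg.Agent.Lib.Helper30.centralizer_generalizedFittingSubgroup_le G
    rw [Subgroup.mem_centralizer_iff]
    intro f _
    exact hyc f
  have hcn : (Subgroup.center ↥(Cfsg.generalizedFittingSubgroup G)).Normal := inferInstance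
  rcases hcn.eq_bot_or_eq_top with h | h
  · have h1 : (⟨y, hyF⟩ : ↥(Cfsg.generalizedFittingSubgroup G)) ∈
        Subgroup.center ↥(Cfsg.generalizedFittingSubgroup G) := by
      rw [Subgroup.mem_center_iff]
      intro g
      apply Subtype.ext
      exact hyc g
    rw [h, Subgroup.mem_bot] at h1
    have h2 : y = 1 := congrArg Subtype.val h1
    rw [h2, orderOf_one] at hy
    omega
  · apply hF'
    refine ⟨⟨fun a b => ?_⟩⟩
    have ha : a ∈ Subgroup.center ↥(Cfsg.generalizedFittingSubgroup G) := h ▸ Subgroup.mem_top a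
    exact (Subgroup.mem_center_iff.mp ha b).symm

/-- **Components modulo the core.** If `Γ / O(Γ)` has the `B`-property, `t` is an involution of
`Γ` and `J` a `2`-component of `C_Γ(t)`, then the image of `J` in `Γ / O(Γ)` is a component of the
centralizer of the image of `t`, and `[J, E] ≤ O(Γ)` for every `J`-invariant subgroup `E` of odd
order of `C_Γ(t)`. -/
theorem isComponent_map_mk_of_hasBProperty {Γ : Type u} [Group Γ] [Finite Γ]
    (hB : Cfsg.HasBProperty (Γ ⧸ Cfsg.oddCore Γ)) {t : Γ} (ht : orderOf t = 2) {J : Subgroup Γ}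
    (hJ : IsPCompLike 2 (Subgroup.centralizer ({t} : Set Γ)) J) :
    Cfsg.IsComponent ((J.map (QuotientGroup.mk' (Cfsg.oddCore Γ))).subgroupOf
      (Subgroup.centralizer ({QuotientGroup.mk' (Cfsg.oddCore Γ) t} : Set (Γ ⧸ Cfsg.oddCore Γ)))) ∧
    ∀ E : Subgroup Γ, E ≤ Subgroup.centralizer ({t} : Set Γ) → Odd (Nat.card E) →
      J ≤ Subgroup.normalizer (E : Set Γ) → ∀ j ∈ J, ∀ e ∈ E, ⁅j, e⁆ ∈ Cfsg.oddCore Γ := by
  classical
  have hN : (Nat.card (Cfsg.oddCore Γ)).Coprime 2 :=
    Cfsg.Agent.Lib.Helper22.card_pPrimeCore_coprime 2 Γ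
  have hne : J.map (QuotientGroup.mk' (Cfsg.oddCore Γ)) ≠ ⊥ := by
    intro h0
    have hJN : J ≤ Cfsg.oddCore Γ := by
      have h1 := (Subgroup.map_eq_bot_iff J).mp h0
      rw [QuotientGroup.ker_mk'] at h1
      exact h1
    apply hJ.ne_bot
    apply eq_bot_of_genP_of_coprime hJ.2.2.2.2
    exact Nat.Coprime.coprime_dvd_left (Subgroup.card_dvd_of_le hJN) hN
  have hJ1 := hJ.map (QuotientGroup.mk' (Cfsg.oddCore Γ)) hne
  rw [map_centralizer_singleton_mk_of_odd (Cfsg.oddCore Γ) hN ht] at hJ1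
  have hB1 := hB (QuotientGroup.mk' (Cfsg.oddCore Γ) t) (orderOf_mk_eq_two (Cfsg.oddCore Γ) hN ht)
  have hO : Cfsg.oddCore (Γ ⧸ Cfsg.oddCore Γ) = ⊥ :=
    Cfsg.Agent.Lib.Helper22.pPrimeCore_quotient_eq_bot 2 Γ
  rw [hO, le_bot_iff, Subgroup.map_eq_bot_iff_of_injective _ (Subgroup.subtype_injective _)] at hB1
  have hcomp := isComponent_subgroupOf_of_commutator_eq_bot hJ1 hB1
  refine ⟨hcomp, ?_⟩
  intro E hEC hodd hnorm j hj e he
  have hEC' : E.map (QuotientGroup.mk' (Cfsg.oddCore Γ)) ≤ Subgroup.centralizer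
      ({QuotientGroup.mk' (Cfsg.oddCore Γ) t} : Set (Γ ⧸ Cfsg.oddCore Γ)) := by
    rw [← map_centralizer_singleton_mk_of_odd (Cfsg.oddCore Γ) hN ht]
    exact Subgroup.map_mono hEC
  have hnorm' : J.map (QuotientGroup.mk' (Cfsg.oddCore Γ)) ≤ Subgroup.normalizer
      ((E.map (QuotientGroup.mk' (Cfsg.oddCore Γ)) : Subgroup (Γ ⧸ Cfsg.oddCore Γ)) :
        Set (Γ ⧸ Cfsg.oddCore Γ)) :=
    (Subgroup.map_mono hnorm).trans (Subgroup.le_normalizer_map _)
  have hodd' : Odd (Nat.card (E.map (QuotientGroup.mk' (Cfsg.oddCore Γ)))) :=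
    Odd.of_dvd_nat hodd (Subgroup.card_map_dvd _ _)
  have hc := commute_of_isComponent_subgroupOf_of_odd hJ1.1 hcomp hJ1.2.2.2.2 hne hEC' hnorm'
    hodd' _ (Subgroup.mem_map_of_mem _ hj) _ (Subgroup.mem_map_of_mem _ he)
  rw [← QuotientGroup.eq_one_iff, ← QuotientGroup.mk'_apply, map_commutatorElement,
    commutatorElement_eq_one_iff_mul_comm]
  exact hc

/-- The statement of `S1775` from the `B`-property of `C_G(y) / O(C_G(y))`. -/
theorem two_component_section {G : Type u} [Group G] [Finite G] (x y : G) (hx : orderOf x = 2)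
    (hxy : x * y = y * x)
    (hB : Cfsg.HasBProperty (↥(Subgroup.centralizer ({y} : Set G)) ⧸
      Cfsg.oddCore ↥(Subgroup.centralizer ({y} : Set G))))
    (J : Subgroup ↥((Cfsg.pLayer 2 ↥(Subgroup.centralizer ({x} : Set G))).map (Subgroup.centralizer ({x} : Set G)).subtype ⊓ Subgroup.centralizer ({y} : Set G)))
    (hJ : Cfsg.IsPComponent 2 J) :
    Cfsg.IsComponent
        ((((J.map (Subgroup.subtype _)).subgroupOf (Subgroup.centralizer ({y} : Set G))).map (QuotientGroup.mk' (Cfsg.oddCore ↥(Subgroup.centralizer ({y} : Set G))))).subgroupOf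
          (Subgroup.centralizer ({(QuotientGroup.mk' (Cfsg.oddCore ↥(Subgroup.centralizer ({y} : Set G))) ⟨x, Subgroup.mem_centralizer_singleton_iff.mpr hxy⟩ : ↥(Subgroup.centralizer ({y} : Set G)) ⧸ Cfsg.oddCore ↥(Subgroup.centralizer ({y} : Set G)))} : Set _))) ∧
      ∀ E : Subgroup G, E ≤ Subgroup.centralizer ({x} : Set G) ⊓ Subgroup.centralizer ({y} : Set G) → Odd (Nat.card ↥E) →
        (∀ j ∈ J.map (Subgroup.subtype _), ∀ e ∈ E, j * e * j⁻¹ ∈ E) →
          ⁅J.map (Subgroup.subtype _), E⁆ ≤ (Cfsg.oddCore ↥(Subgroup.centralizer ({y} : Set G))).map (Subgroup.centralizer ({y} : Set G)).subtype := by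
  classical
  have hJ0 := isPCompLike_of_isPComponent hJ
  have hLn : (Cfsg.pLayer 2 ↥(Subgroup.centralizer ({x} : Set G))).Normal :=
    Cfsg.Agent.Lib.Helper23.pLayer_normal 2 _
  have hDM : (Cfsg.pLayer 2 ↥(Subgroup.centralizer ({x} : Set G))).map
      (Subgroup.centralizer ({x} : Set G)).subtype ⊓ Subgroup.centralizer ({y} : Set G) ≤
      Subgroup.centralizer ({x} : Set G) ⊓ Subgroup.centralizer ({y} : Set G) :=
    inf_le_inf_right _ (Subgroup.map_subtype_le _)
  have hDn : Subgroup.centralizer ({x} : Set G) ⊓ Subgroup.centralizer ({y} : Set G) ≤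
      Subgroup.normalizer (((Cfsg.pLayer 2 ↥(Subgroup.centralizer ({x} : Set G))).map
        (Subgroup.centralizer ({x} : Set G)).subtype ⊓ Subgroup.centralizer ({y} : Set G) :
          Subgroup G) : Set G) := by
    apply Cfsg.Agent.Lib.Helper22.le_normalizer_of_conj_mem
    rintro m ⟨hmx, hmy⟩ d ⟨⟨d', hd', rfl⟩, hdy⟩
    refine ⟨⟨⟨m, hmx⟩ * d' * ⟨m, hmx⟩⁻¹, hLn.conj_mem d' hd' ⟨m, hmx⟩, rfl⟩, ?_⟩
    exact Subgroup.mul_mem _ (Subgroup.mul_mem _ hmy hdy) (Subgroup.inv_mem _ hmy)
  have hJ1 := hJ0.of_subnormal hDM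
    ((Subgroup.normal_subgroupOf_iff_le_normalizer hDM).mpr hDn).isSubnormal
  have hJCy : J.map (Subgroup.subtype _) ≤ Subgroup.centralizer ({y} : Set G) :=
    hJ1.1.trans inf_le_right
  have hJ2 := hJ1.subgroupOf_of_le (Subgroup.centralizer ({y} : Set G)) hJCy
  have hEq : (Subgroup.centralizer ({x} : Set G) ⊓ Subgroup.centralizer ({y} : Set G)).subgroupOf
      (Subgroup.centralizer ({y} : Set G)) =
      Subgroup.centralizer ({(⟨x, Subgroup.mem_centralizer_singleton_iff.mpr hxy⟩ :
        ↥(Subgroup.centralizer ({y} : Set G)))} : Set ↥(Subgroup.centralizer ({y} : Set G))) := by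
    ext z
    rw [Subgroup.mem_subgroupOf, Subgroup.mem_centralizer_singleton_iff]
    constructor
    · rintro ⟨h1, -⟩
      apply Subtype.ext
      exact Subgroup.mem_centralizer_singleton_iff.mp h1
    · intro h
      exact ⟨Subgroup.mem_centralizer_singleton_iff.mpr (congrArg Subtype.val h), z.2⟩
  rw [hEq] at hJ2
  have hxo : orderOf (⟨x, Subgroup.mem_centralizer_singleton_iff.mpr hxy⟩ :
      ↥(Subgroup.centralizer ({y} : Set G))) = 2 := by
    rw [← Subgroup.orderOf_coe]
    exact hx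
  obtain ⟨h1, h2⟩ := isComponent_map_mk_of_hasBProperty hB hxo hJ2
  refine ⟨h1, ?_⟩
  intro E hE hodd hconj
  have hECy : E ≤ Subgroup.centralizer ({y} : Set G) := hE.trans inf_le_right
  rw [Subgroup.commutator_le]
  intro j hj e he
  have h3 := h2 (E.subgroupOf (Subgroup.centralizer ({y} : Set G))) ?_ ?_ ?_ ⟨j, hJCy hj⟩
    (Subgroup.mem_subgroupOf.mpr hj) ⟨e, hECy he⟩ (Subgroup.mem_subgroupOf.mpr he)
  · exact ⟨_, h3, rfl⟩
  · rw [← hEq]
    intro z hz
    exact Subgroup.mem_subgroupOf.mpr (hE (Subgroup.mem_subgroupOf.mp hz))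
  · rw [Nat.card_congr (Subgroup.subgroupOfEquivOfLe hECy).toEquiv]
    exact hodd
  · apply Cfsg.Agent.Lib.Helper22.le_normalizer_of_conj_mem
    intro a ha b hb
    exact Subgroup.mem_subgroupOf.mpr
      (hconj _ (Subgroup.mem_subgroupOf.mp ha) _ (Subgroup.mem_subgroupOf.mp hb))

end BSection

end Cfsg.Agent.Lib.Helper31
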