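import Mathlib
import Cfsg.Prelude.Def_Local
import Cfsg.Prelude.Def_ClassificationStages
import Cfsg.Agent.Lib.Helper31.ZBal2

/-!
`L_{2'}`-balance for all finite groups (helper31).

* `le_layer_of_isPCompLike_normalizer`: if `O(Y) = 1` and balance holds in all groups of smaller
  order, every `2`-component of the normalizer of a `2`-subgroup of `Y` lies in `E(Y)`
  (pass to `Y / C_Y(E(Y))` and apply `le_of_isPCompLike_normalizer`);
* `nBal_two`: `L_{2'}(N_X(R)) ≤ L_{2'}(X)` for every `2`-subgroup `R` of a finite group `X`;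
* `pLayer_centralizer_map_le_two`: `L_{2'}(C_X(T)) ≤ L_{2'}(X)`.
-/

set_option autoImplicit false

namespace Cfsg.Agent.Lib.Helper31

open Cfsg
open scoped commutatorElement
open scoped Pointwise

universe u

section Gen

variable {Y : Type u} [Group Y] [Finite Y] {p : ℕ} [Fact p.Prime]

/-- A `p`-component of the normalizer of a `p`-subgroup centralizes `O_p`. -/
theorem IsPCompLike.commute_pCore {R J : Subgroup Y} (hR : IsPGroup p R)
    (hJ : IsPCompLike p (Subgroup.normalizer (R : Set Y)) J) :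
    ∀ j ∈ J, ∀ u ∈ Cfsg.pCore p Y, j * u = u * j := by
  classical
  obtain ⟨hJN, hJsn, hJperf, hJq, -⟩ := hJ
  obtain ⟨N, hNdef⟩ : ∃ N : Subgroup Y, N = Subgroup.normalizer (R : Set Y) := ⟨_, rfl⟩
  rw [← hNdef] at hJN hJsn
  have hPn : (Cfsg.pCore p Y).Normal := Cfsg.pCore_normal p Y
  have hPp : IsPGroup p (Cfsg.pCore p Y) := pCore_isPGroup_ag p Y
  have hRN : R ≤ N := hNdef ▸ Subgroup.le_normalizer
  have hNR : N ≤ Subgroup.normalizer (R : Set Y) := hNdef.le
  have hJR : ∀ j ∈ J, ∀ r ∈ R, j * r = r * j :=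
    commute_of_normal_pGroup hJN hJsn hJq hRN hNR hR
  have hJPN : ∀ j ∈ J, ∀ d ∈ Cfsg.pCore p Y ⊓ N, j * d = d * j :=
    commute_of_normal_pGroup hJN hJsn hJq inf_le_right (le_normalizer_normal_inf hPn N)
      (hPp.to_le inf_le_left)
  have hJP' : ∀ x ∈ J, (orderOf x).Coprime p → ∀ u ∈ Cfsg.pCore p Y, x * u = u * x := by
    intro x hx hxp
    have hnorm : ∀ z : Y, z ∈ Subgroup.normalizer ((Cfsg.pCore p Y : Subgroup Y) : Set Y) := by
      intro z
      rw [Subgroup.normalizer_eq_top]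
      trivial
    have hmain := Cfsg.Agent.Lib.Helper49.thompson_AxB (Cfsg.pCore p Y) R hPp hR
      (fun r _ => hnorm r) x (hnorm x) hxp
      (fun b hb => hJR x hx b hb)
      (fun u hu hub => by
        have huN : u ∈ N := by
          rw [hNdef]
          apply Subgroup.centralizer_le_normalizer
          rw [Subgroup.mem_centralizer_iff]
          intro b hb
          exact (hub b hb).symm
        exact hJPN x hx u ⟨hu, huN⟩)
    intro u hu
    exact hmain u hu
  have h1 : J ≤ Subgroup.centralizer (Cfsg.pCore p Y : Set Y) := by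
    refine (perfect_le_closure_pPrime p hJperf).trans ?_
    rw [Subgroup.closure_le]
    rintro x ⟨hx, hxp⟩
    rw [SetLike.mem_coe, Subgroup.mem_centralizer_iff]
    intro u hu
    exact (hJP' x hx hxp u hu).symm
  intro j hj u hu
  exact (Subgroup.mem_centralizer_iff.mp (h1 hj) u hu).symm

/-- If `x` acts on the perfect normal subgroup `E` trivially modulo `C(E)`, then `x` centralizes
`E`. -/
theorem commute_of_conj_commutator_mem_centralizer {Γ : Type*} [Group Γ] {E : Subgroup Γ}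
    (hE : E.Normal) (hperf : ⁅E, E⁆ = E) {x : Γ}
    (h : ∀ e ∈ E, x * e * x⁻¹ * e⁻¹ ∈ Subgroup.centralizer (E : Set Γ)) :
    ∀ e ∈ E, x * e = e * x := by
  have hle : E ≤ Subgroup.centralizer ({x} : Set Γ) := by
    rw [← hperf, Subgroup.commutator_le]
    intro e₁ h₁ e₂ h₂
    have hz : ∀ e ∈ E, ∀ e' ∈ E, (x * e * x⁻¹ * e⁻¹) * e' = e' * (x * e * x⁻¹ * e⁻¹) := by
      intro e he e' he'
      exact (Subgroup.mem_centralizer_iff.mp (h e he) e' he').symm
    have hzE : ∀ e ∈ E, x * e * x⁻¹ * e⁻¹ ∈ E := by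
      intro e he
      exact E.mul_mem (hE.conj_mem e he x) (E.inv_mem he)
    have hconj : ∀ e ∈ E, x * e * x⁻¹ = e * (x * e * x⁻¹ * e⁻¹) := by
      intro e he
      rw [← hz e he e he]
      group
    have h3 := Cfsg.Agent.Lib.Helper22.commutatorElement_mul_central e₁ e₂
      (x * e₁ * x⁻¹ * e₁⁻¹) (x * e₂ * x⁻¹ * e₂⁻¹) (hz e₁ h₁ e₂ h₂)
      (hz e₁ h₁ _ (hzE e₂ h₂)) (hz e₂ h₂ e₁ h₁)
    rw [← hconj e₁ h₁, ← hconj e₂ h₂] at h3
    have h4 : x * ⁅e₁, e₂⁆ * x⁻¹ = ⁅x * e₁ * x⁻¹, x * e₂ * x⁻¹⁆ := by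
      rw [commutatorElement_def, commutatorElement_def]
      group
    rw [h3] at h4
    rw [Subgroup.mem_centralizer_iff]
    intro y hy
    rw [Set.mem_singleton_iff] at hy
    rw [hy]
    exact mul_inv_eq_iff_eq_mul.mp h4
  intro e he
  exact Subgroup.mem_centralizer_iff.mp (hle he) x rfl

/-- A `p`-component of the normalizer of a `p`-subgroup centralizes `C_Y(E(Y))` when
`O_{p'}(Y) = 1`. -/
theorem IsPCompLike.commute_centralizer_layer (hO : Cfsg.pPrimeCore p Y = ⊥) {R J : Subgroup Y}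
    (hR : IsPGroup p R) (hJ : IsPCompLike p (Subgroup.normalizer (R : Set Y)) J) :
    ∀ j ∈ J, ∀ c ∈ Subgroup.centralizer (Cfsg.layer Y : Set Y), j * c = c * j := by
  classical
  have hJP := hJ.commute_pCore hR
  have hPn : (Cfsg.pCore p Y).Normal := Cfsg.pCore_normal p Y
  have hPp : IsPGroup p (Cfsg.pCore p Y) := pCore_isPGroup_ag p Y
  have hLn : (Cfsg.layer Y).Normal := Cfsg.Agent.Lib.Helper22.layer_normal' Y
  obtain ⟨C, hCdef⟩ : ∃ C : Subgroup Y, C = Subgroup.centralizer (Cfsg.layer Y : Set Y) :=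
    ⟨_, rfl⟩
  rw [← hCdef]
  have hCn : C.Normal := by
    rw [hCdef]
    have : (Subgroup.centralizer (Cfsg.layer Y : Set Y)).Characteristic :=
      Subgroup.characteristic_centralizer
    exact Subgroup.normal_of_characteristic _
  have hFP : Cfsg.fittingSubgroup Y = Cfsg.pCore p Y :=
    Cfsg.Agent.Lib.Helper22.fittingSubgroup_eq_pCore_of_pPrimeCore_eq_bot hO
  have hEF : ∀ a ∈ Cfsg.layer Y, ∀ b ∈ Cfsg.fittingSubgroup Y, a * b = b * a :=
    Cfsg.Agent.Lib.Helper22.comm_of_commutator_eq_bot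
      Cfsg.Agent.Lib.Helper22.commutator_layer_fittingSubgroup
  have key : ∀ c ∈ C, ∀ j ∈ J, ⁅c, j⁆ ∈ Cfsg.pCore p Y := by
    intro c hc j hj
    have hdC : ⁅c, j⁆ ∈ C := by
      rw [commutatorElement_def]
      have h1 := hCn.conj_mem _ (C.inv_mem hc) j
      have e : c * j * c⁻¹ * j⁻¹ = c * (j * c⁻¹ * j⁻¹) := by group
      rw [e]
      exact C.mul_mem hc h1
    have hdP : ∀ u ∈ Cfsg.pCore p Y, ⁅c, j⁆ * u = u * ⁅c, j⁆ := by
      intro u hu
      have e1 : j⁻¹ * u = u * j⁻¹ := by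
        have h0 := hJP j hj u hu
        calc j⁻¹ * u = j⁻¹ * (u * j) * j⁻¹ := by group
          _ = j⁻¹ * (j * u) * j⁻¹ := by rw [h0]
          _ = u * j⁻¹ := by group
      have hu' : c⁻¹ * u * c ∈ Cfsg.pCore p Y := by
        have h0 := hPn.conj_mem u hu c⁻¹
        rw [inv_inv] at h0
        exact h0
      have e2 : j * (c⁻¹ * u * c) = (c⁻¹ * u * c) * j := hJP j hj _ hu'
      rw [commutatorElement_def]
      calc c * j * c⁻¹ * j⁻¹ * u = c * j * c⁻¹ * (j⁻¹ * u) := by group
        _ = c * j * c⁻¹ * (u * j⁻¹) := by rw [e1]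
        _ = c * (j * (c⁻¹ * u * c)) * c⁻¹ * j⁻¹ := by group
        _ = c * ((c⁻¹ * u * c) * j) * c⁻¹ * j⁻¹ := by rw [e2]
        _ = u * (c * j * c⁻¹ * j⁻¹) := by group
    have hdF : ⁅c, j⁆ ∈ Subgroup.centralizer (Cfsg.generalizedFittingSubgroup Y : Set Y) := by
      have h1 : Cfsg.generalizedFittingSubgroup Y ≤
          Subgroup.centralizer ({⁅c, j⁆} : Set Y) := by
        unfold Cfsg.generalizedFittingSubgroup
        apply sup_le
        · intro e he
          rw [Subgroup.mem_centralizer_iff]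
          intro y hy
          rw [Set.mem_singleton_iff] at hy
          rw [hy]
          rw [hCdef] at hdC
          exact (Subgroup.mem_centralizer_iff.mp hdC e he).symm
        · intro u hu
          rw [hFP] at hu
          rw [Subgroup.mem_centralizer_iff]
          intro y hy
          rw [Set.mem_singleton_iff] at hy
          rw [hy]
          exact hdP u hu
      rw [Subgroup.mem_centralizer_iff]
      intro y hy
      exact (Subgroup.mem_centralizer_iff.mp (h1 hy) _ rfl).symm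
    have hdFs := Cfsg.Agent.Lib.Helper30.centralizer_generalizedFittingSubgroup_le Y hdF
    obtain ⟨a, ha, b, hb, hab⟩ := Cfsg.Agent.Lib.Helper22.mem_sup_of_comm hEF hdFs
    have hbC : b ∈ C := by
      rw [hCdef, Subgroup.mem_centralizer_iff]
      intro e he
      exact hEF e he b hb
    have haC : a ∈ C := by
      have e : a = ⁅c, j⁆ * b⁻¹ := by
        rw [hab]
        group
      rw [e]
      exact C.mul_mem hdC (C.inv_mem hbC)
    have haP : a ∈ Cfsg.pCore p Y := by
      apply layer_inf_centralizer_le_pCore hO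
      rw [hCdef] at haC
      exact ⟨ha, haC⟩
    rw [hab]
    rw [hFP] at hb
    exact Subgroup.mul_mem _ haP hb
  intro j hj c hc
  -- the homomorphism `j ↦ [c, j]` from `J` to `O_p(Y)`
  have hmul : ∀ a b : ↥J, (⟨⁅c, ((a * b : ↥J) : Y)⁆, key c hc _ (a * b).2⟩ : ↥(Cfsg.pCore p Y)) =
      ⟨⁅c, (a : Y)⁆, key c hc _ a.2⟩ * ⟨⁅c, (b : Y)⁆, key c hc _ b.2⟩ := by
    intro a b
    apply Subtype.ext
    show ⁅c, (a : Y) * (b : Y)⁆ = ⁅c, (a : Y)⁆ * ⁅c, (b : Y)⁆
    have h0 := hJP a a.2 _ (key c hc b b.2)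
    rw [commutatorElement_def] at h0
    rw [commutatorElement_def, commutatorElement_def, commutatorElement_def]
    calc c * ((a : Y) * (b : Y)) * c⁻¹ * ((a : Y) * (b : Y))⁻¹
        = c * (a : Y) * c⁻¹ * (c * (b : Y) * c⁻¹ * (b : Y)⁻¹) * (a : Y)⁻¹ := by group
      _ = c * (a : Y) * c⁻¹ * (a : Y)⁻¹ * ((a : Y) * (c * (b : Y) * c⁻¹ * (b : Y)⁻¹)) *
          (a : Y)⁻¹ := by group
      _ = c * (a : Y) * c⁻¹ * (a : Y)⁻¹ * ((c * (b : Y) * c⁻¹ * (b : Y)⁻¹) * (a : Y)) *
          (a : Y)⁻¹ := by rw [h0]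
      _ = c * (a : Y) * c⁻¹ * (a : Y)⁻¹ * (c * (b : Y) * c⁻¹ * (b : Y)⁻¹) := by group
  obtain ⟨φ, hφ⟩ : ∃ φ : ↥J →* ↥(Cfsg.pCore p Y), ∀ a : ↥J, ((φ a : ↥(Cfsg.pCore p Y)) : Y) =
      ⁅c, (a : Y)⁆ :=
    ⟨MonoidHom.mk' (fun a => ⟨⁅c, (a : Y)⁆, key c hc _ a.2⟩) hmul, fun a => rfl⟩
  have hperfJ : Group.IsPerfect ↥J := Subgroup.isPerfect_iff.mpr hJ.2.2.1
  have htop : ⁅(⊤ : Subgroup ↥J), (⊤ : Subgroup ↥J)⁆ = ⊤ := by
    rw [← commutator_def]
    exact hperfJ.commutator_eq_top
  have hsolv : Group.IsSolvable ↥(Cfsg.pCore p Y) := by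
    have : Group.IsNilpotent ↥(Cfsg.pCore p Y) := hPp.isNilpotent
    infer_instance
  have hrange : (⊤ : Subgroup ↥J).map φ = ⊥ :=
    eq_bot_of_perfect_of_isSolvable hsolv (map_perfect φ htop)
  have h1 : φ ⟨j, hj⟩ = 1 := by
    have h2 : φ ⟨j, hj⟩ ∈ (⊤ : Subgroup ↥J).map φ := ⟨_, Subgroup.mem_top _, rfl⟩
    rw [hrange, Subgroup.mem_bot] at h2
    exact h2
  have h3 : ⁅c, j⁆ = 1 := by
    have h4 := hφ ⟨j, hj⟩
    rw [h1] at h4
    exact h4.symm
  exact (commutatorElement_eq_one_iff_mul_comm.mp h3).symm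

end Gen

section T1

variable {Y : Type u} [Group Y] [Finite Y]

/-- **Core-free step.** If `O(Y) = 1` and `L_{2'}`-balance holds in all groups of smaller order,
then every `2`-component of the normalizer of a `2`-subgroup of `Y` lies in `E(Y)`. -/
theorem le_layer_of_isPCompLike_normalizer (hO : Cfsg.pPrimeCore 2 Y = ⊥)
    (hIH : ∀ (H : Type u) [Group H] [Finite H], Nat.card H < Nat.card Y → NBal 2 H)
    {R J : Subgroup Y} (hR : IsPGroup 2 R)
    (hJ : IsPCompLike 2 (Subgroup.normalizer (R : Set Y)) J) : J ≤ Cfsg.layer Y := by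
  classical
  have hLn : (Cfsg.layer Y).Normal := Cfsg.Agent.Lib.Helper22.layer_normal' Y
  have hLperf : ⁅Cfsg.layer Y, Cfsg.layer Y⁆ = Cfsg.layer Y :=
    Cfsg.Agent.Lib.Helper22.layer_perfect
  have hJC0 := hJ.commute_centralizer_layer hO hR
  obtain ⟨C, hCdef⟩ : ∃ C : Subgroup Y, C = Subgroup.centralizer (Cfsg.layer Y : Set Y) :=
    ⟨_, rfl⟩
  rw [← hCdef] at hJC0
  have hCn : C.Normal := by
    rw [hCdef]
    have : (Subgroup.centralizer (Cfsg.layer Y : Set Y)).Characteristic :=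
      Subgroup.characteristic_centralizer
    exact Subgroup.normal_of_characteristic _
  have hEC : ∀ e ∈ Cfsg.layer Y, ∀ c ∈ C, e * c = c * e := by
    intro e he c hc
    rw [hCdef] at hc
    exact Subgroup.mem_centralizer_iff.mp hc e he
  have hJR : ∀ j ∈ J, ∀ r ∈ R, j * r = r * j :=
    commute_of_normal_pGroup hJ.1 hJ.2.1 hJ.2.2.2.1 Subgroup.le_normalizer le_rfl hR
  obtain ⟨π, hπdef⟩ : ∃ π : Y →* Y ⧸ C, π = QuotientGroup.mk' C := ⟨_, rfl⟩
  have hπs : Function.Surjective π := hπdef ▸ QuotientGroup.mk'_surjective C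
  have hker : π.ker = C := hπdef ▸ QuotientGroup.ker_mk' C
  have hπ1 : ∀ y : Y, π y = 1 ↔ y ∈ C := by
    intro y
    constructor
    · intro h
      have h1 : y ∈ π.ker := MonoidHom.mem_ker.mpr h
      rw [hker] at h1
      exact h1
    · intro h
      have h1 : y ∈ π.ker := by
        rw [hker]
        exact h
      exact MonoidHom.mem_ker.mp h1
  -- the image of `J` is nontrivial
  have hne : J.map π ≠ ⊥ := by
    intro h0
    have hJleC : J ≤ C := by
      rw [← hker]
      exact (Subgroup.map_eq_bot_iff J).mp h0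
    apply hJ.ne_bot
    rw [← hJ.2.2.1]
    apply Cfsg.Agent.Lib.Helper22.commutator_eq_bot_of_comm
    intro a ha b hb
    exact hJC0 a ha b (hJleC hb)
  -- the image of `J` is a `2`-component of the normalizer of the image of `R`
  have hJZ : J ≤ Subgroup.centralizer ((R ⊔ C : Subgroup Y) : Set Y) := by
    intro j hj
    have h1 : R ⊔ C ≤ Subgroup.centralizer ({j} : Set Y) := by
      apply sup_le
      · intro r hr
        rw [Subgroup.mem_centralizer_iff]
        intro y hy
        rw [Set.mem_singleton_iff] at hy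
        rw [hy]
        exact hJR j hj r hr
      · intro c hc
        rw [Subgroup.mem_centralizer_iff]
        intro y hy
        rw [Set.mem_singleton_iff] at hy
        rw [hy]
        exact hJC0 j hj c hc
    rw [Subgroup.mem_centralizer_iff]
    intro y hy
    exact (Subgroup.mem_centralizer_iff.mp (h1 hy) j rfl).symm
  have hZN : Subgroup.centralizer ((R ⊔ C : Subgroup Y) : Set Y) ≤
      Subgroup.normalizer (R : Set Y) := by
    refine le_trans ?_ (Subgroup.centralizer_le_normalizer (R : Set Y))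
    apply Subgroup.centralizer_le
    intro r hr
    exact (le_sup_left : R ≤ R ⊔ C) hr
  have hJ1 : IsPCompLike 2 (Subgroup.centralizer ((R ⊔ C : Subgroup Y) : Set Y)) J :=
    hJ.of_le hJZ hZN
  have hn2 : ((Subgroup.centralizer ((R ⊔ C : Subgroup Y) : Set Y)).subgroupOf
      (Subgroup.normalizer ((R ⊔ C : Subgroup Y) : Set Y))).Normal := inferInstance
  have hJ2 : IsPCompLike 2 (Subgroup.normalizer ((R ⊔ C : Subgroup Y) : Set Y)) J :=
    hJ1.of_subnormal (Subgroup.centralizer_le_normalizer _) hn2.isSubnormal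
  have hJ3 := hJ2.map π hne
  have hNeq : (Subgroup.normalizer ((R ⊔ C : Subgroup Y) : Set Y)).map π =
      Subgroup.normalizer ((R.map π : Subgroup (Y ⧸ C)) : Set (Y ⧸ C)) := by
    have h1 := Subgroup.comap_normalizer_eq_of_surjective (R.map π) hπs
    rw [Subgroup.comap_map_eq, hker] at h1
    rw [← h1, Subgroup.map_comap_eq_self_of_surjective hπs]
  rw [hNeq] at hJ3
  -- the hypotheses of Theorem C for the image of `E(Y)`
  obtain ⟨Kt, hKtdef⟩ : ∃ Kt : Subgroup (Y ⧸ C), Kt = (Cfsg.layer Y).map π := ⟨_, rfl⟩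
  have hKtn : Kt.Normal := hKtdef ▸ Subgroup.Normal.map hLn π hπs
  have hCKt : Subgroup.centralizer (Kt : Set (Y ⧸ C)) = ⊥ := by
    rw [eq_bot_iff]
    intro xt hxt
    obtain ⟨x, rfl⟩ := hπs xt
    rw [Subgroup.mem_bot, hπ1]
    have h1 : ∀ e ∈ Cfsg.layer Y, x * e * x⁻¹ * e⁻¹ ∈
        Subgroup.centralizer (Cfsg.layer Y : Set Y) := by
      intro e he
      rw [← hCdef, ← hπ1]
      have h2 : π e * π x = π x * π e :=
        Subgroup.mem_centralizer_iff.mp hxt (π e) (hKtdef ▸ Subgroup.mem_map_of_mem π he)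
      rw [map_mul, map_mul, map_mul, map_inv, map_inv, ← h2]
      group
    have h3 := commute_of_conj_commutator_mem_centralizer hLn hLperf h1
    rw [hCdef, Subgroup.mem_centralizer_iff]
    intro e he
    exact (h3 e he).symm
  -- subnormal subgroups of `E(Y)` containing no component are central
  have hkey : ∀ M : Subgroup Y, M.IsSubnormal →
      (∀ L : Subgroup Y, Cfsg.IsComponent L → ¬ L ≤ M) → M ≤ C := by
    intro M hM hno
    have h1 : Cfsg.layer Y ≤ Subgroup.centralizer (M : Set Y) := by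
      rw [Cfsg.Agent.Lib.Helper22.layer_le_iff]
      intro L hL
      rcases Cfsg.Agent.Lib.Helper22.component_le_or_commute hL hM with h | h
      · exact absurd h (hno L hL)
      · exact Subgroup.commutator_eq_bot_iff_le_centralizer.mp h
    intro m hm
    rw [hCdef, Subgroup.mem_centralizer_iff]
    intro e he
    exact (Subgroup.mem_centralizer_iff.mp (h1 he) m hm).symm
  have hsub : ∀ Mt : Subgroup (Y ⧸ C), Mt ≤ Kt → Mt.comap π ⊓ Cfsg.layer Y ≤ C → Mt = ⊥ := by
    intro Mt hMK hle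
    rw [eq_bot_iff]
    intro m hm
    have hm' := hMK hm
    rw [hKtdef] at hm'
    obtain ⟨e, he, rfl⟩ := hm'
    rw [Subgroup.mem_bot, hπ1]
    exact hle ⟨hm, he⟩
  have hLC : ∀ L : Subgroup Y, Cfsg.IsComponent L → ¬ L ≤ C := by
    intro L hL hLC
    apply Cfsg.Agent.Lib.Helper22.IsComponent.ne_bot hL
    rw [← Cfsg.Agent.Lib.Helper22.IsComponent.perfect hL]
    apply Cfsg.Agent.Lib.Helper22.commutator_eq_bot_of_comm
    intro a ha b hb
    exact hEC a (Cfsg.Agent.Lib.Helper22.component_le_layer hL ha) b (hLC hb)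
  have h2 : ∀ Q : Subgroup (Y ⧸ C), Q.Normal → IsPGroup 2 Q → Q ≤ Kt → Q = ⊥ := by
    intro Q hQn hQ hQK
    apply hsub Q hQK
    apply hkey
    · have hn : (Q.comap π ⊓ Cfsg.layer Y).Normal :=
        Subgroup.normal_inf_normal _ _
      exact hn.isSubnormal
    · intro L hL hLM
      apply hLC L hL
      have h1 : L.map π ≤ Q := by
        rw [Subgroup.map_le_iff_le_comap]
        exact hLM.trans inf_le_left
      have h3 : Group.IsSolvable ↥(L.map π) := by
        have : Group.IsNilpotent ↥(L.map π) := (hQ.to_le h1).isNilpotent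
        infer_instance
      have h4 : L.map π = ⊥ := by
        by_contra hne'
        have hnt : Nontrivial ↥(L.map π) := (Subgroup.nontrivial_iff_ne_bot _).mpr hne'
        have hp' : Group.IsPerfect ↥(L.map π) := Subgroup.isPerfect_iff.mpr
          (map_perfect π (Cfsg.Agent.Lib.Helper22.IsComponent.perfect hL))
        exact Group.IsPerfect.not_isSolvable ↥(L.map π) h3
      rw [← hker]
      exact (Subgroup.map_eq_bot_iff L).mp h4
  have ho : ∀ M : Subgroup (Y ⧸ C), M ≤ Kt → Kt ≤ Subgroup.normalizer (M : Set (Y ⧸ C)) →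
      Odd (Nat.card M) → M = ⊥ := by
    intro M hMK hMn hModd
    apply hsub M hMK
    apply hkey
    · have hML : M.comap π ⊓ Cfsg.layer Y ≤ Cfsg.layer Y := inf_le_right
      have hnorm : Cfsg.layer Y ≤
          Subgroup.normalizer ((M.comap π ⊓ Cfsg.layer Y : Subgroup Y) : Set Y) := by
        intro e he
        rw [Subgroup.mem_normalizer_iff]
        have hπe : π e ∈ Subgroup.normalizer (M : Set (Y ⧸ C)) :=
          hMn (hKtdef ▸ Subgroup.mem_map_of_mem π he)
        intro x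
        constructor
        · rintro ⟨hx1, hx2⟩
          refine ⟨?_, hLn.conj_mem x hx2 e⟩
          show π (e * x * e⁻¹) ∈ M
          rw [map_mul, map_mul, map_inv]
          exact (Subgroup.mem_normalizer_iff.mp hπe (π x)).mp hx1
        · rintro ⟨hx1, hx2⟩
          refine ⟨?_, ?_⟩
          · show π x ∈ M
            have h5 : π (e * x * e⁻¹) ∈ M := hx1
            rw [map_mul, map_mul, map_inv] at h5
            exact (Subgroup.mem_normalizer_iff.mp hπe (π x)).mpr h5
          · have h5 := hLn.conj_mem _ hx2 e⁻¹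
            have e5 : e⁻¹ * (e * x * e⁻¹) * e⁻¹⁻¹ = x := by group
            rw [e5] at h5
            exact h5
      exact Subgroup.IsSubnormal.trans hML
        ((Subgroup.normal_subgroupOf_iff_le_normalizer hML).mpr hnorm).isSubnormal
        hLn.isSubnormal
    · intro L hL hLM
      have h1 : L.map π ≤ M := by
        rw [Subgroup.map_le_iff_le_comap]
        exact hLM.trans inf_le_left
      have hLperf' : Group.IsPerfect ↥L :=
        Subgroup.isPerfect_iff.mpr (Cfsg.Agent.Lib.Helper22.IsComponent.perfect hL)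
      obtain ⟨P⟩ : Nonempty (Sylow 2 ↥L) := inferInstance
      have hPc : (P : Subgroup ↥L) ≤ Subgroup.center ↥L := by
        intro x hx
        have hxC : (x : Y) ∈ C := by
          rw [← hπ1]
          obtain ⟨k, hk⟩ := P.isPGroup' ⟨x, hx⟩
          have hxk : (x : Y) ^ 2 ^ k = 1 := by
            have h6 := congrArg (fun z : ↥(P : Subgroup ↥L) => ((z : ↥L) : Y)) hk
            simpa using h6
          have h7 : orderOf (π (x : Y)) ∣ 2 ^ k := by
            apply orderOf_dvd_of_pow_eq_one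
            rw [← map_pow, hxk, map_one]
          have h8 : orderOf (π (x : Y)) ∣ Nat.card M :=
            Subgroup.orderOf_dvd_natCard _ (h1 (Subgroup.mem_map_of_mem π x.2))
          have h9 : (Nat.card M).Coprime (2 ^ k) :=
            Nat.Coprime.pow_right k (Nat.coprime_two_right.mpr hModd)
          exact orderOf_eq_one_iff.mp (Nat.eq_one_of_dvd_coprimes h9 h8 h7)
        rw [Subgroup.mem_center_iff]
        intro y
        apply Subtype.ext
        show (y : Y) * (x : Y) = (x : Y) * (y : Y)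
        exact hEC y (Cfsg.Agent.Lib.Helper22.component_le_layer hL y.2) x hxC
      have h10 := Cfsg.Agent.Lib.Helper22.not_dvd_card_of_perfect_of_sylow_le_center 2 hLperf' P
        hPc
      have h11 : (Nat.card L).Coprime 2 := by
        rw [Nat.coprime_two_right]
        exact Nat.not_even_iff_odd.mp (fun he => h10 (even_iff_two_dvd.mp he))
      have h12 := Cfsg.Agent.Lib.Helper22.le_pPrimeCore_of_subnormal 2 hL.1 h11
      rw [hO] at h12
      exact Cfsg.Agent.Lib.Helper22.IsComponent.ne_bot hL (le_bot_iff.mp h12)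
  have hIH' : ∀ C' : Subgroup (Y ⧸ C), C' ≠ ⊤ → NBal 2 ↥C' := by
    intro C' hC'
    apply hIH
    have h1 : Nat.card ↥C' < Nat.card (Y ⧸ C) :=
      lt_of_le_of_ne (Subgroup.card_le_card_group C')
        (fun h => hC' (Subgroup.eq_top_of_card_eq C' h))
    exact lt_of_lt_of_le h1 (Nat.card_le_card_of_surjective π hπs)
  have hJK := le_of_isPCompLike_normalizer hKtn hCKt h2 ho hIH' (hR.map π) hJ3
  have hJEC : J ≤ Cfsg.layer Y ⊔ C := by
    intro j hj
    have h1 : π j ∈ Kt := hJK (Subgroup.mem_map_of_mem π hj)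
    rw [hKtdef] at h1
    obtain ⟨e, he, hej⟩ := h1
    have h3 : e⁻¹ * j ∈ C := by
      rw [← hπ1, map_mul, map_inv, hej]
      group
    have e4 : j = e * (e⁻¹ * j) := by group
    rw [e4]
    exact Subgroup.mul_mem _ ((le_sup_left : Cfsg.layer Y ≤ _) he)
      ((le_sup_right : C ≤ _) h3)
  exact le_of_le_sup_of_commute hEC hJC0 hJEC hJ.2.2.1

end T1

section XLevel

variable {X : Type u} [Group X] [Finite X] {p : ℕ} [Fact p.Prime]

/-- Reduction of `L_{p'}`-balance to the core-free quotient `X / O_{p'}(X)`. -/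
theorem pLayer_normalizer_map_le_of_core_free
    (hT : ∀ R' J' : Subgroup (X ⧸ Cfsg.pPrimeCore p X), IsPGroup p R' →
      IsPCompLike p (Subgroup.normalizer (R' : Set (X ⧸ Cfsg.pPrimeCore p X))) J' →
      J' ≤ Cfsg.layer (X ⧸ Cfsg.pPrimeCore p X))
    (R : Subgroup X) (hR : IsPGroup p ↥R) :
    (Cfsg.pLayer p ↥(Subgroup.normalizer (R : Set X))).map
      (Subgroup.normalizer (R : Set X)).subtype ≤ Cfsg.pLayer p X := by
  classical
  have hNbar0 := Cfsg.Agent.Lib.Helper22.normalizer_map_mk_of_coprime (Cfsg.pPrimeCore p X)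
    (Cfsg.Agent.Lib.Helper22.card_pPrimeCore_coprime p X) R hR
  generalize Subgroup.normalizer (R : Set X) = N at hNbar0 ⊢
  have hO : Cfsg.pPrimeCore p (X ⧸ Cfsg.pPrimeCore p X) = ⊥ :=
    Cfsg.Agent.Lib.Helper22.pPrimeCore_quotient_eq_bot p X
  have hRbar : IsPGroup p ↥(R.map (QuotientGroup.mk' (Cfsg.pPrimeCore p X))) := hR.map _
  have hLn : (Cfsg.pLayer p X).Normal := Cfsg.Agent.Lib.Helper23.pLayer_normal p X
  rw [Subgroup.map_le_iff_le_comap]
  show sSup {K : Subgroup ↥N | Cfsg.IsPComponent p K} ≤ _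
  apply sSup_le
  intro J hJ
  rw [← Subgroup.map_le_iff_le_comap]
  have hJperf : ⁅J, J⁆ = J := Cfsg.Agent.Lib.Helper22.IsPComponent.perfect hJ
  have hJgen := IsPComponent.le_closure_pElements hJ
  have hJq := Cfsg.Agent.Lib.Helper22.IsPComponent.isQuasisimple_quotient hJ
  -- the image of `J` in `X / O_{p'}(X)`
  obtain ⟨f, hfdef⟩ : ∃ f : ↥N →* X ⧸ Cfsg.pPrimeCore p X,
      f = (QuotientGroup.mk' (Cfsg.pPrimeCore p X)).comp N.subtype := ⟨_, rfl⟩
  have hf_apply : ∀ x : ↥N, f x = ((x : X) : X ⧸ Cfsg.pPrimeCore p X) := by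
    intro x
    rw [hfdef]
    rfl
  have hJbar : J.map f = (J.map N.subtype).map (QuotientGroup.mk' (Cfsg.pPrimeCore p X)) := by
    rw [hfdef, Subgroup.map_map]
  have h1 : ⁅J.map f, J.map f⁆ = J.map f := map_perfect f hJperf
  have h3 : J.map f ≤ Subgroup.closure
      {y : X ⧸ Cfsg.pPrimeCore p X | y ∈ J.map f ∧ ∃ k : ℕ, y ^ p ^ k = 1} := by
    refine (Subgroup.map_mono hJgen).trans ?_
    rw [MonoidHom.map_closure]
    apply Subgroup.closure_mono
    rintro _ ⟨x, ⟨hxJ, k, hxk⟩, rfl⟩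
    refine ⟨Subgroup.mem_map_of_mem f hxJ, k, ?_⟩
    rw [← map_pow, hxk, map_one]
  have h4 : J.map f ≤ N.map (QuotientGroup.mk' (Cfsg.pPrimeCore p X)) := by
    rintro _ ⟨x, -, rfl⟩
    rw [hf_apply]
    exact ⟨(x : X), x.2, rfl⟩
  have h5 : ((J.map f).subgroupOf
      (N.map (QuotientGroup.mk' (Cfsg.pPrimeCore p X)))).IsSubnormal := by
    have h6 := hJ.1.map
      (MonoidHom.subgroupMap_surjective (QuotientGroup.mk' (Cfsg.pPrimeCore p X)) N)
    have h7 : J.map ((QuotientGroup.mk' (Cfsg.pPrimeCore p X)).subgroupMap N) =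
        (J.map f).subgroupOf (N.map (QuotientGroup.mk' (Cfsg.pPrimeCore p X))) := by
      ext y
      rw [Subgroup.mem_subgroupOf]
      constructor
      · rintro ⟨x, hx, rfl⟩
        exact ⟨x, hx, hf_apply x⟩
      · rintro ⟨x, hx, hxy⟩
        refine ⟨x, hx, Subtype.ext ?_⟩
        rw [← hxy, hf_apply]
        rfl
    rw [h7] at h6
    exact h6
  have h6 : Cfsg.IsQuasisimple (↥(J.map f) ⧸ Cfsg.pPrimeCore p ↥(J.map f)) := by
    apply isQuasisimple_quot_of_surjective p (f.subgroupMap J)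
      (MonoidHom.subgroupMap_surjective f J) ?_ hJq
    have h7 : (f.subgroupMap J).ker.map (N.subtype.comp J.subtype) ≤ Cfsg.pPrimeCore p X := by
      rintro _ ⟨x, hx, rfl⟩
      have hx' : x ∈ (f.subgroupMap J).ker := hx
      rw [MonoidHom.mem_ker] at hx'
      have h8 : f (x : ↥N) = 1 := congrArg Subtype.val hx'
      rw [hf_apply] at h8
      exact (QuotientGroup.eq_one_iff _).mp h8
    have h9 : Nat.card ((f.subgroupMap J).ker.map (N.subtype.comp J.subtype)) =
        Nat.card (f.subgroupMap J).ker :=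
      Subgroup.card_map_of_injective
        ((Subgroup.subtype_injective N).comp (Subgroup.subtype_injective J))
    rw [← h9]
    exact Nat.Coprime.coprime_dvd_left (Subgroup.card_dvd_of_le h7)
      (Cfsg.Agent.Lib.Helper22.card_pPrimeCore_coprime p X)
  rw [hNbar0] at h4 h5
  have h7 := hT _ _ hRbar ⟨h4, h5, h1, h6, h3⟩
  rw [← Cfsg.Agent.Lib.Helper22.pLayer_map_mk p, hJbar] at h7
  -- back to `X`
  have hmap : (Cfsg.pLayer p X ⊔ J.map N.subtype).map
      (QuotientGroup.mk' (Cfsg.pPrimeCore p X)) ≤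
      (Cfsg.pLayer p X).map (QuotientGroup.mk' (Cfsg.pPrimeCore p X)) := by
    rw [Subgroup.map_sup]
    exact sup_le le_rfl h7
  refine (Subgroup.map_mono hJgen).trans ?_
  rw [MonoidHom.map_closure, Subgroup.closure_le]
  rintro _ ⟨x, ⟨hxJ, k, hxk⟩, rfl⟩
  have hxM : (x : X) ∈ Cfsg.pLayer p X ⊔ J.map N.subtype :=
    (le_sup_right : J.map N.subtype ≤ _) ⟨x, hxJ, rfl⟩
  have hxk' : (x : X) ^ p ^ k = 1 := by
    rw [← Subgroup.coe_pow, hxk]
    rfl
  exact Cfsg.Agent.Lib.Helper22.pElement_mem_of_map_le (p := p) hLn.isSubnormal le_sup_left hmap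
    hxM hxk'

end XLevel

section Final

/-- **`L_{2'}`-balance** (normalizer form), by induction on the order. -/
theorem nBal_two_aux : ∀ n : ℕ, ∀ (X : Type u) [Group X] [Finite X], Nat.card X = n →
    NBal 2 X := by
  intro n
  induction n using Nat.strong_induction_on with
  | _ n ih =>
    intro X _ _ hn R hR
    apply pLayer_normalizer_map_le_of_core_free ?_ R hR
    intro R' J' hR' hJ'
    apply le_layer_of_isPCompLike_normalizer
      (Cfsg.Agent.Lib.Helper22.pPrimeCore_quotient_eq_bot 2 X) ?_ hR' hJ'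
    intro H _ _ hH
    have h1 : Nat.card (X ⧸ Cfsg.pPrimeCore 2 X) ≤ Nat.card X :=
      Nat.card_le_card_of_surjective _ (QuotientGroup.mk'_surjective (Cfsg.pPrimeCore 2 X))
    exact ih (Nat.card H) (by omega) H rfl

theorem nBal_two (X : Type u) [Group X] [Finite X] : NBal 2 X :=
  nBal_two_aux (Nat.card X) X rfl

/-- **`L`-balance**: `L_{2'}(C_X(T)) ≤ L_{2'}(X)` for every `2`-subgroup `T` of a finite group
`X`. -/
theorem pLayer_centralizer_map_le_two {X : Type u} [Group X] [Finite X] (T : Subgroup X)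
    (hT : IsPGroup 2 ↥T) :
    (Cfsg.pLayer 2 ↥(Subgroup.centralizer (T : Set X))).map
      (Subgroup.centralizer (T : Set X)).subtype ≤ Cfsg.pLayer 2 X := by
  have hNB := nBal_two X
  rw [Subgroup.map_le_iff_le_comap]
  show sSup {K : Subgroup ↥(Subgroup.centralizer (T : Set X)) | Cfsg.IsPComponent 2 K} ≤ _
  apply sSup_le
  intro P hP
  have h1 := isPCompLike_of_isPComponent hP
  have hn : ((Subgroup.centralizer (T : Set X)).subgroupOf
      (Subgroup.normalizer (T : Set X))).Normal := inferInstance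
  have h2 := h1.of_subnormal (Subgroup.centralizer_le_normalizer _) hn.isSubnormal
  have h3 := hNB.le_pLayer hT h2
  intro z hz
  exact h3 ⟨z, hz, rfl⟩

end Final

end Cfsg.Agent.Lib.Helper31
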