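import Mathlib
import Cfsg.Prelude.Def_Local
import Cfsg.Prelude.Def_Balance
import Cfsg.Agent.Lib.Helper31.ZBal3
import Cfsg.Agent.Lib.Helper31.BSection
import Cfsg.Agent.Lib.Helper31.Terminal

/-!
Components of the centralizer of an involution `t` inside the layer (helper31).

Let `J ≤ E(Γ)` be a component of `C_Γ(t)`, `t² = 1`, and `D` a component of `Γ` not centralized
by `J`. Then `J ≤ D D^t`; if `D^t ≠ D`, then `J` lies in the diagonal `{d d^t : d ∈ D}`.
-/

set_option autoImplicit false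

namespace Cfsg.Agent.Lib.Helper31

open Cfsg
open scoped commutatorElement

universe u

section Diag

variable {Γ : Type u} [Group Γ]

theorem conj_conj_of_mul_self {t : Γ} (ht : t * t = 1) (x : Γ) :
    t * (t * x * t⁻¹) * t⁻¹ = x := by
  have h1 : t⁻¹ = t := inv_eq_of_mul_eq_one_left ht
  rw [h1]
  calc t * (t * x * t) * t = (t * t) * x * (t * t) := by group
    _ = x := by rw [ht]; group

theorem map_conj_map_conj_of_mul_self {t : Γ} (ht : t * t = 1) (L : Subgroup Γ) :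
    (L.map (MulAut.conj t).toMonoidHom).map (MulAut.conj t).toMonoidHom = L := by
  ext x
  constructor
  · rintro ⟨_, ⟨y, hy, rfl⟩, rfl⟩
    have h1 : (MulAut.conj t).toMonoidHom ((MulAut.conj t).toMonoidHom y) = y :=
      conj_conj_of_mul_self ht y
    rw [h1]
    exact hy
  · intro hx
    refine ⟨t * x * t⁻¹, ⟨x, hx, rfl⟩, ?_⟩
    exact conj_conj_of_mul_self ht x

end Diag

section DiagFin

variable {Γ : Type u} [Group Γ] [Finite Γ]

/-- A component `J ≤ E(Γ)` of `C_Γ(t)`, `t² = 1`, lies in `D D^t` for every component `D` of `Γ`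
that it does not centralize. -/
theorem le_sup_conj_of_component_centralizer {t : Γ} (ht : t * t = 1) {J D : Subgroup Γ}
    (hJE : J ≤ Cfsg.layer Γ) (hJt : J ≤ Subgroup.centralizer ({t} : Set Γ))
    (hJ : Cfsg.IsComponent (J.subgroupOf (Subgroup.centralizer ({t} : Set Γ))))
    (hD : Cfsg.IsComponent D) (hJD : ⁅J, D⁆ ≠ ⊥) :
    J ≤ D ⊔ D.map (MulAut.conj t).toMonoidHom := by
  classical
  have hDtt := map_conj_map_conj_of_mul_self ht D
  have hDt0 : Cfsg.IsComponent (D.map (MulAut.conj t).toMonoidHom) :=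
    Cfsg.Agent.Lib.Helper22.isComponent_map_equiv (MulAut.conj t) hD
  obtain ⟨Dt, hDtdef⟩ : ∃ Dt : Subgroup Γ, Dt = D.map (MulAut.conj t).toMonoidHom := ⟨_, rfl⟩
  rw [← hDtdef] at hDtt hDt0 ⊢
  obtain ⟨N, hNdef⟩ : ∃ N : Subgroup Γ, N = D ⊔ Dt := ⟨_, rfl⟩
  rw [← hNdef]
  obtain ⟨M, hMdef⟩ : ∃ M : Subgroup Γ,
      M = sSup {L : Subgroup Γ | Cfsg.IsComponent L ∧ L ≠ D ∧ L ≠ Dt} := ⟨_, rfl⟩
  have hDN : D ≤ N := hNdef ▸ le_sup_left
  -- `N` is `t`-invariant
  have hNt : ∀ n ∈ N, t * n * t⁻¹ ∈ N := by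
    intro n hn
    have h1 : N.map (MulAut.conj t).toMonoidHom = N := by
      rw [hNdef, Subgroup.map_sup, hDtt, ← hDtdef, sup_comm]
    rw [← h1]
    exact ⟨n, hn, rfl⟩
  -- `M` is `t`-invariant
  have hMt : ∀ m ∈ M, t * m * t⁻¹ ∈ M := by
    have h1 : M.map (MulAut.conj t).toMonoidHom ≤ M := by
      rw [Subgroup.map_le_iff_le_comap, hMdef]
      apply sSup_le
      rintro L ⟨hL, hLD, hLDt⟩
      rw [← Subgroup.map_le_iff_le_comap]
      apply le_sSup
      refine ⟨Cfsg.Agent.Lib.Helper22.isComponent_map_equiv (MulAut.conj t) hL, ?_, ?_⟩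
      · intro h
        apply hLDt
        have h2 := congrArg (Subgroup.map (MulAut.conj t).toMonoidHom) h
        rw [map_conj_map_conj_of_mul_self ht L, ← hDtdef] at h2
        exact h2
      · intro h
        apply hLD
        rw [hDtdef] at h
        exact Subgroup.map_injective (MulAut.conj t).injective h
    intro m hm
    exact h1 ⟨m, hm, rfl⟩
  -- `N` and `M` commute
  have hMN : M ≤ Subgroup.centralizer (N : Set Γ) := by
    rw [hMdef]
    apply sSup_le
    rintro L ⟨hL, hLD, hLDt⟩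
    rw [Subgroup.le_centralizer_iff, hNdef]
    apply sup_le
    · rw [← Subgroup.commutator_eq_bot_iff_le_centralizer]
      exact Cfsg.Agent.Lib.Helper22.components_commute hD hL (Ne.symm hLD)
    · rw [← Subgroup.commutator_eq_bot_iff_le_centralizer]
      exact Cfsg.Agent.Lib.Helper22.components_commute hDt0 hL (Ne.symm hLDt)
  have hNM : ∀ n ∈ N, ∀ m ∈ M, n * m = m * n := by
    intro n hn m hm
    exact Subgroup.mem_centralizer_iff.mp (hMN hm) n hn
  have hlayer : Cfsg.layer Γ ≤ N ⊔ M := by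
    rw [Cfsg.Agent.Lib.Helper22.layer_le_iff]
    intro L hL
    by_cases h1 : L = D
    · rw [h1]
      exact hDN.trans le_sup_left
    · by_cases h2 : L = Dt
      · rw [h2, hNdef]
        exact le_sup_right.trans le_sup_left
      · refine le_trans ?_ le_sup_right
        rw [hMdef]
        exact le_sSup ⟨hL, h1, h2⟩
  have hperf : ⁅J, J⁆ = J := by
    have h1 := Cfsg.Agent.Lib.Helper22.IsComponent.perfect hJ
    have h2 := congrArg (Subgroup.map (Subgroup.centralizer ({t} : Set Γ)).subtype) h1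
    rw [Subgroup.map_commutator, Subgroup.subgroupOf_map_subtype, inf_of_le_left hJt] at h2
    exact h2
  -- the subgroup `C(t) ∩ N(N)`
  obtain ⟨Γ₂, hΓ₂def⟩ : ∃ Γ₂ : Subgroup Γ,
      Γ₂ = Subgroup.centralizer ({t} : Set Γ) ⊓ Subgroup.normalizer (N : Set Γ) := ⟨_, rfl⟩
  have hΓ₂t : Γ₂ ≤ Subgroup.centralizer ({t} : Set Γ) := hΓ₂def ▸ inf_le_left
  have hΓ₂N : Γ₂ ≤ Subgroup.normalizer (N : Set Γ) := hΓ₂def ▸ inf_le_right
  have hJΓ₂ : J ≤ Γ₂ := by
    rw [hΓ₂def]
    refine le_inf hJt ((hJE.trans hlayer).trans (sup_le Subgroup.le_normalizer ?_))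
    exact hMN.trans (Subgroup.centralizer_le_normalizer _)
  have hJ2 : Cfsg.IsComponent (J.subgroupOf Γ₂) :=
    ⟨isSubnormal_subgroupOf_of_le hΓ₂t hJ.1,
      Cfsg.Agent.Lib.Helper22.isQuasisimple_of_mulEquiv
        ((Subgroup.subgroupOfEquivOfLe hJΓ₂).trans (Subgroup.subgroupOfEquivOfLe hJt).symm) hJ.2⟩
  have hHΓ₂ : N ⊓ Subgroup.centralizer ({t} : Set Γ) ≤ Γ₂ := by
    rw [hΓ₂def]
    exact le_inf inf_le_right (inf_le_left.trans Subgroup.le_normalizer)
  have hHn : ((N ⊓ Subgroup.centralizer ({t} : Set Γ)).subgroupOf Γ₂).Normal := by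
    rw [Subgroup.normal_subgroupOf_iff_le_normalizer hHΓ₂]
    apply Cfsg.Agent.Lib.Helper22.le_normalizer_of_conj_mem
    rintro g hg h ⟨hhN, hht⟩
    refine ⟨?_, ?_⟩
    · exact (Subgroup.mem_normalizer_iff.mp (hΓ₂N hg) h).mp hhN
    · exact Subgroup.mul_mem _ (Subgroup.mul_mem _ (hΓ₂t hg) hht) (Subgroup.inv_mem _ (hΓ₂t hg))
  rcases Cfsg.Agent.Lib.Helper22.component_le_or_commute_normal hJ2 hHn with h | h
  · intro j hj
    have h1 := h (show (⟨j, hJΓ₂ hj⟩ : ↥Γ₂) ∈ J.subgroupOf Γ₂ from Subgroup.mem_subgroupOf.mpr hj)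
    exact (Subgroup.mem_subgroupOf.mp h1).1
  · exfalso
    apply hJD
    have hcomm : ∀ j ∈ J, ∀ c ∈ N, t * c = c * t → j * c = c * j := by
      intro j hj c hc hct
      have hcC : c ∈ N ⊓ Subgroup.centralizer ({t} : Set Γ) := by
        refine ⟨hc, ?_⟩
        show c ∈ Subgroup.centralizer ({t} : Set Γ)
        rw [Subgroup.mem_centralizer_iff]
        intro y hy
        rw [Set.mem_singleton_iff] at hy
        rw [hy]
        exact hct
      have h1 := Cfsg.Agent.Lib.Helper22.comm_of_commutator_eq_bot h ⟨j, hJΓ₂ hj⟩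
        (Subgroup.mem_subgroupOf.mpr hj) ⟨c, hHΓ₂ hcC⟩ (Subgroup.mem_subgroupOf.mpr hcC)
      exact congrArg Subtype.val h1
    have htj : ∀ j ∈ J, t * j = j * t := by
      intro j hj
      exact Subgroup.mem_centralizer_iff.mp (hJt hj) t rfl
    have hdec : ∀ j ∈ J, ∃ n ∈ N, ∃ m ∈ M, j = n * m := fun j hj =>
      Cfsg.Agent.Lib.Helper22.mem_sup_of_comm hNM (hlayer (hJE hj))
    -- `N`-parts commute with commutators of `N`-parts
    have h3 : ∀ n₃ ∈ N, ∀ m₃ ∈ M, n₃ * m₃ ∈ J → ∀ n₁ ∈ N, ∀ m₁ ∈ M, n₁ * m₁ ∈ J →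
        ∀ n₂ ∈ N, ∀ m₂ ∈ M, n₂ * m₂ ∈ J → n₃ * ⁅n₁, n₂⁆ = ⁅n₁, n₂⁆ * n₃ := by
      intro n₃ hn₃ m₃ hm₃ hj₃ n₁ hn₁ m₁ hm₁ hj₁ n₂ hn₂ m₂ hm₂ hj₂
      have hc1 : t * ⁅n₁, n₂⁆ = ⁅n₁, n₂⁆ * t :=
        commute_commutator_of_commute_mul hNM hNt hMt hn₁ hn₂ hm₁ hm₂ (htj _ hj₁) (htj _ hj₂)
      have hcN : ⁅n₁, n₂⁆ ∈ N := commutatorElement_mem_self hn₁ hn₂
      have h4 := hcomm _ hj₃ _ hcN hc1
      have h5 : m₃ * ⁅n₁, n₂⁆ = ⁅n₁, n₂⁆ * m₃ := (hNM _ hcN m₃ hm₃).symm
      have h6 : n₃ * ⁅n₁, n₂⁆ * m₃ = ⁅n₁, n₂⁆ * n₃ * m₃ := by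
        calc n₃ * ⁅n₁, n₂⁆ * m₃ = n₃ * (⁅n₁, n₂⁆ * m₃) := by group
          _ = n₃ * (m₃ * ⁅n₁, n₂⁆) := by rw [h5]
          _ = n₃ * m₃ * ⁅n₁, n₂⁆ := by group
          _ = ⁅n₁, n₂⁆ * (n₃ * m₃) := h4
          _ = ⁅n₁, n₂⁆ * n₃ * m₃ := by group
      exact mul_right_cancel h6
    obtain ⟨S, hSdef⟩ : ∃ S : Set Γ, S = {c : Γ | ∃ n₁ ∈ N, ∃ m₁ ∈ M, ∃ n₂ ∈ N, ∃ m₂ ∈ M,
        n₁ * m₁ ∈ J ∧ n₂ * m₂ ∈ J ∧ c = ⁅n₁, n₂⁆} := ⟨_, rfl⟩
    have hSN : Subgroup.closure S ≤ N := by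
      rw [Subgroup.closure_le, hSdef]
      rintro c ⟨n₁, hn₁, m₁, hm₁, n₂, hn₂, m₂, hm₂, -, -, rfl⟩
      exact commutatorElement_mem_self hn₁ hn₂
    have hstep1 : J ≤ Subgroup.closure S ⊔ M := by
      rw [← hperf, Subgroup.commutator_le]
      intro j₁ hj₁ j₂ hj₂
      obtain ⟨n₁, hn₁, m₁, hm₁, rfl⟩ := hdec j₁ hj₁
      obtain ⟨n₂, hn₂, m₂, hm₂, rfl⟩ := hdec j₂ hj₂
      rw [commutatorElement_mul_mul_of_commute hNM hn₁ hn₂ hm₁ hm₂]
      refine Subgroup.mul_mem _ (le_sup_left (a := Subgroup.closure S) (b := M)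
        (Subgroup.subset_closure ?_)) (le_sup_right (a := Subgroup.closure S) (b := M)
        (commutatorElement_mem_self hm₁ hm₂))
      rw [hSdef]
      exact ⟨n₁, hn₁, m₁, hm₁, n₂, hn₂, m₂, hm₂, hj₁, hj₂, rfl⟩
    have hJM : J ≤ M := by
      rw [← hperf, Subgroup.commutator_le]
      intro j₁ hj₁ j₂ hj₂
      obtain ⟨n₁, hn₁, m₁, hm₁, h1⟩ := hdec j₁ hj₁
      obtain ⟨n₂, hn₂, m₂, hm₂, h2⟩ := hdec j₂ hj₂
      obtain ⟨s, hs, m', hm', h1'⟩ := Cfsg.Agent.Lib.Helper22.mem_sup_of_comm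
        (fun a ha b hb => hNM a (hSN ha) b hb) (hstep1 hj₁)
      have hn₁eq : n₁ = s * (m' * m₁⁻¹) := by
        have h0 : n₁ * m₁ = s * m' := by rw [← h1, h1']
        calc n₁ = n₁ * m₁ * m₁⁻¹ := by group
          _ = s * m' * m₁⁻¹ := by rw [h0]
          _ = s * (m' * m₁⁻¹) := by group
      have hs2 : Subgroup.closure S ≤ Subgroup.centralizer ({n₂} : Set Γ) := by
        rw [Subgroup.closure_le, hSdef]
        rintro c ⟨a₁, ha₁, b₁, hb₁, a₂, ha₂, b₂, hb₂, hab₁, hab₂, rfl⟩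
        show ⁅a₁, a₂⁆ ∈ Subgroup.centralizer ({n₂} : Set Γ)
        rw [Subgroup.mem_centralizer_iff]
        intro y hy
        rw [Set.mem_singleton_iff] at hy
        rw [hy]
        exact h3 n₂ hn₂ m₂ hm₂ (h2 ▸ hj₂) a₁ ha₁ b₁ hb₁ hab₁ a₂ ha₂ b₂ hb₂ hab₂
      have hc1 : n₂ * s = s * n₂ := Subgroup.mem_centralizer_iff.mp (hs2 hs) n₂ rfl
      have hc2 : n₂ * (m' * m₁⁻¹) = (m' * m₁⁻¹) * n₂ :=
        hNM n₂ hn₂ _ (M.mul_mem hm' (M.inv_mem hm₁))
      have hc3 : n₁ * n₂ = n₂ * n₁ := by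
        rw [hn₁eq]
        calc s * (m' * m₁⁻¹) * n₂ = s * ((m' * m₁⁻¹) * n₂) := by group
          _ = s * (n₂ * (m' * m₁⁻¹)) := by rw [hc2]
          _ = (s * n₂) * (m' * m₁⁻¹) := by group
          _ = (n₂ * s) * (m' * m₁⁻¹) := by rw [hc1]
          _ = n₂ * (s * (m' * m₁⁻¹)) := by group
      rw [h1, h2, commutatorElement_mul_mul_of_commute hNM hn₁ hn₂ hm₁ hm₂,
        commutatorElement_eq_one_iff_mul_comm.mpr hc3, one_mul]
      exact commutatorElement_mem_self hm₁ hm₂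
    apply Cfsg.Agent.Lib.Helper22.commutator_eq_bot_of_comm
    intro j hj d hd
    exact (hNM d (hDN hd) j (hJM hj)).symm

end DiagFin

section DiagHom

variable {Γ : Type u} [Group Γ]

/-- The diagonal map `d ↦ d d^t` of a subgroup `D` commuting with `D^t`. -/
def diagHom (t : Γ) (D : Subgroup Γ)
    (hcomm : ∀ d ∈ D, ∀ e ∈ D, d * (t * e * t⁻¹) = (t * e * t⁻¹) * d) : ↥D →* Γ where
  toFun d := (d : Γ) * (t * (d : Γ) * t⁻¹)
  map_one' := by
    show ((1 : ↥D) : Γ) * (t * ((1 : ↥D) : Γ) * t⁻¹) = 1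
    rw [Subgroup.coe_one]
    group
  map_mul' a b := by
    show ((a * b : ↥D) : Γ) * (t * ((a * b : ↥D) : Γ) * t⁻¹) =
      (a : Γ) * (t * (a : Γ) * t⁻¹) * ((b : Γ) * (t * (b : Γ) * t⁻¹))
    rw [Subgroup.coe_mul]
    have h1 := hcomm (b : Γ) b.2 (a : Γ) a.2
    calc (a : Γ) * (b : Γ) * (t * ((a : Γ) * (b : Γ)) * t⁻¹)
        = (a : Γ) * ((b : Γ) * (t * (a : Γ) * t⁻¹)) * (t * (b : Γ) * t⁻¹) := by group
      _ = (a : Γ) * ((t * (a : Γ) * t⁻¹) * (b : Γ)) * (t * (b : Γ) * t⁻¹) := by rw [h1]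
      _ = (a : Γ) * (t * (a : Γ) * t⁻¹) * ((b : Γ) * (t * (b : Γ) * t⁻¹)) := by group

theorem diagHom_apply (t : Γ) (D : Subgroup Γ)
    (hcomm : ∀ d ∈ D, ∀ e ∈ D, d * (t * e * t⁻¹) = (t * e * t⁻¹) * d) (d : ↥D) :
    diagHom t D hcomm d = (d : Γ) * (t * (d : Γ) * t⁻¹) := rfl

/-- A perfect subgroup of `C(t) ∩ D D^t`, with `[D, D^t] = 1` and `t² = 1`, lies in the diagonal
`{d d^t}`. -/
theorem le_range_diagHom {t : Γ} (ht : t * t = 1) {J D : Subgroup Γ}
    (hperf : ⁅J, J⁆ = J) (hJt : J ≤ Subgroup.centralizer ({t} : Set Γ))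
    (hcomm : ∀ d ∈ D, ∀ e ∈ D, d * (t * e * t⁻¹) = (t * e * t⁻¹) * d)
    (hJle : J ≤ D ⊔ D.map (MulAut.conj t).toMonoidHom) :
    J ≤ (diagHom t D hcomm).range := by
  have hDDt : ∀ a ∈ D, ∀ b ∈ D.map (MulAut.conj t).toMonoidHom, a * b = b * a := by
    rintro a ha _ ⟨e, he, rfl⟩
    exact hcomm a ha e he
  -- every element of `J` is `d d^t u` with `u ∈ D ∩ D^t`
  have hdec : ∀ j ∈ J, ∃ d : ↥D, ∃ u ∈ D, (∃ e ∈ D, u = t * e * t⁻¹) ∧
      j = diagHom t D hcomm d * u := by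
    intro j hj
    obtain ⟨d, hd, _, ⟨e, he, rfl⟩, rfl⟩ :=
      Cfsg.Agent.Lib.Helper22.mem_sup_of_comm hDDt (hJle hj)
    have htj : t * (d * (t * e * t⁻¹)) = (d * (t * e * t⁻¹)) * t :=
      Subgroup.mem_centralizer_iff.mp (hJt hj) t rfl
    have h1 : (t * d * t⁻¹) * e = d * (t * e * t⁻¹) := by
      calc (t * d * t⁻¹) * e = (t * d * t⁻¹) * (t * (t * e * t⁻¹) * t⁻¹) := by
            rw [conj_conj_of_mul_self ht e]
        _ = (t * (d * (t * e * t⁻¹))) * t⁻¹ := by group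
        _ = ((d * (t * e * t⁻¹)) * t) * t⁻¹ := by rw [htj]
        _ = d * (t * e * t⁻¹) := by group
    have h2 : e * (t * d * t⁻¹) = (t * d * t⁻¹) * e := hcomm e he d hd
    -- `u = e d⁻¹ = t (d⁻¹ e) t⁻¹`
    have h3 : e * d⁻¹ = t * (d⁻¹ * e) * t⁻¹ := by
      have h4 : d⁻¹ * e = (t * e * t⁻¹) * (t * d * t⁻¹)⁻¹ := by
        have h5 : e = d * (t * e * t⁻¹) * (t * d * t⁻¹)⁻¹ := by
          rw [← h1, ← h2]
          group
        calc d⁻¹ * e = d⁻¹ * (d * (t * e * t⁻¹) * (t * d * t⁻¹)⁻¹) := by rw [← h5]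
          _ = (t * e * t⁻¹) * (t * d * t⁻¹)⁻¹ := by group
      rw [h4]
      have h6 : t * (t * e * t⁻¹ * (t * d * t⁻¹)⁻¹) * t⁻¹ =
          (t * (t * e * t⁻¹) * t⁻¹) * (t * (t * d * t⁻¹) * t⁻¹)⁻¹ := by group
      rw [h6, conj_conj_of_mul_self ht e, conj_conj_of_mul_self ht d]
    refine ⟨⟨d, hd⟩, e * d⁻¹, D.mul_mem he (D.inv_mem hd), ⟨d⁻¹ * e, D.mul_mem (D.inv_mem hd) he,
      h3⟩, ?_⟩
    rw [diagHom_apply]
    show d * (t * e * t⁻¹) = d * (t * d * t⁻¹) * (e * d⁻¹)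
    rw [h3]
    group
  rw [← hperf, Subgroup.commutator_le]
  intro j₁ hj₁ j₂ hj₂
  obtain ⟨d₁, u₁, hu₁, ⟨e₁, he₁, hu₁'⟩, rfl⟩ := hdec j₁ hj₁
  obtain ⟨d₂, u₂, hu₂, ⟨e₂, he₂, hu₂'⟩, rfl⟩ := hdec j₂ hj₂
  -- `u₁`, `u₂` commute with `D` and `D^t`
  have hcD : ∀ u ∈ D, (∃ e ∈ D, u = t * e * t⁻¹) → ∀ d : ↥D,
      u * diagHom t D hcomm d = diagHom t D hcomm d * u := by
    rintro u hu ⟨e, he, hue⟩ d
    rw [diagHom_apply]
    have c1 : u * (d : Γ) = (d : Γ) * u := by
      rw [hue]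
      exact (hcomm (d : Γ) d.2 e he).symm
    have c2 : u * (t * (d : Γ) * t⁻¹) = (t * (d : Γ) * t⁻¹) * u := hcomm u hu (d : Γ) d.2
    calc u * ((d : Γ) * (t * (d : Γ) * t⁻¹)) = (u * (d : Γ)) * (t * (d : Γ) * t⁻¹) := by group
      _ = ((d : Γ) * u) * (t * (d : Γ) * t⁻¹) := by rw [c1]
      _ = (d : Γ) * (u * (t * (d : Γ) * t⁻¹)) := by group
      _ = (d : Γ) * ((t * (d : Γ) * t⁻¹) * u) := by rw [c2]
      _ = (d : Γ) * (t * (d : Γ) * t⁻¹) * u := by group
  have huu : u₁ * u₂ = u₂ * u₁ := by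
    rw [hu₁']
    exact (hcomm u₂ hu₂ e₁ he₁).symm
  rw [Cfsg.Agent.Lib.Helper22.commutatorElement_mul_central _ _ u₁ u₂
    (hcD u₁ hu₁ ⟨e₁, he₁, hu₁'⟩ d₂) huu (hcD u₂ hu₂ ⟨e₂, he₂, hu₂'⟩ d₁)]
  exact ⟨⁅d₁, d₂⁆, map_commutatorElement _ _ _⟩

end DiagHom

section Small

variable {Γ : Type*} [Group Γ]

theorem isMulCommutative_iff_comm {H : Subgroup Γ} :
    IsMulCommutative ↥H ↔ ∀ x ∈ H, ∀ y ∈ H, x * y = y * x := by
  rw [← Subgroup.le_centralizer_iff_isMulCommutative]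
  constructor
  · intro h x hx y hy
    exact Subgroup.mem_centralizer_iff.mp (h hy) x hx
  · intro h y hy
    rw [Subgroup.mem_centralizer_iff]
    intro x hx
    exact h x hx y hy

/-- The join of two elementary abelian `2`-subgroups that commute is elementary abelian. -/
theorem elemAb_sup {H K : Subgroup Γ}
    (hH : ∀ x ∈ H, ∀ y ∈ H, x * y = y * x) (hK : ∀ x ∈ K, ∀ y ∈ K, x * y = y * x)
    (hHK : ∀ x ∈ H, ∀ y ∈ K, x * y = y * x) (hH2 : ∀ x ∈ H, x * x = 1)
    (hK2 : ∀ x ∈ K, x * x = 1) :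
    (∀ x ∈ H ⊔ K, ∀ y ∈ H ⊔ K, x * y = y * x) ∧ ∀ x ∈ H ⊔ K, x * x = 1 := by
  constructor
  · intro x hx y hy
    obtain ⟨h, hh, k, hk, rfl⟩ := Cfsg.Agent.Lib.Helper22.mem_sup_of_comm hHK hx
    obtain ⟨h', hh', k', hk', rfl⟩ := Cfsg.Agent.Lib.Helper22.mem_sup_of_comm hHK hy
    have c1 := hHK h' hh' k hk
    have c2 := hH h hh h' hh'
    have c3 := hK k hk k' hk'
    have c4 := hHK h hh k' hk'
    calc h * k * (h' * k') = h * (k * h') * k' := by group
      _ = h * (h' * k) * k' := by rw [c1]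
      _ = (h * h') * (k * k') := by group
      _ = (h' * h) * (k' * k) := by rw [c2, c3]
      _ = h' * (h * k') * k := by group
      _ = h' * (k' * h) * k := by rw [c4]
      _ = h' * k' * (h * k) := by group
  · intro x hx
    obtain ⟨h, hh, k, hk, rfl⟩ := Cfsg.Agent.Lib.Helper22.mem_sup_of_comm hHK hx
    have c1 := hHK h hh k hk
    calc h * k * (h * k) = h * (k * h) * k := by group
      _ = h * (h * k) * k := by rw [c1]
      _ = (h * h) * (k * k) := by group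
      _ = 1 := by rw [hH2 h hh, hK2 k hk, one_mul]

/-- `p`-rank at most `k` for a subgroup, in terms of subgroups of the ambient group. -/
theorem pRankLE_subgroup_iff {H : Subgroup Γ} {p k : ℕ} :
    Cfsg.PRankLE p k ↥H ↔ ∀ E : Subgroup Γ, E ≤ H → (∀ x ∈ E, ∀ y ∈ E, x * y = y * x) →
      (∀ x ∈ E, x ^ p = 1) → Nat.card E ≤ p ^ k := by
  constructor
  · intro h E hE hc h2
    have h1 := h (E.subgroupOf H) ?_ ?_
    · rw [Nat.card_congr (Subgroup.subgroupOfEquivOfLe hE).toEquiv] at h1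
      exact h1
    · rw [isMulCommutative_iff_comm]
      intro x hx y hy
      exact Subtype.ext (hc _ (Subgroup.mem_subgroupOf.mp hx) _ (Subgroup.mem_subgroupOf.mp hy))
    · intro x hx
      apply Subtype.ext
      rw [Subgroup.coe_pow]
      exact h2 _ (Subgroup.mem_subgroupOf.mp hx)
  · intro h A hAc hA2
    have h1 := h (A.map H.subtype) (Subgroup.map_subtype_le A) ?_ ?_
    · rw [Subgroup.card_map_of_injective H.subtype_injective] at h1
      exact h1
    · rintro _ ⟨x, hx, rfl⟩ _ ⟨y, hy, rfl⟩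
      exact congrArg Subtype.val (isMulCommutative_iff_comm.mp hAc x hx y hy)
    · rintro _ ⟨x, hx, rfl⟩
      have h3 := congrArg Subtype.val (hA2 x hx)
      rw [Subgroup.coe_pow] at h3
      exact h3

/-- A perfect nontrivial subgroup of the layer fails to centralize some component. -/
theorem exists_component_not_commute {J : Subgroup Γ}
    (hJE : J ≤ Cfsg.layer Γ) (hperf : ⁅J, J⁆ = J) (hne : J ≠ ⊥) :
    ∃ D : Subgroup Γ, Cfsg.IsComponent D ∧ ⁅J, D⁆ ≠ ⊥ := by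
  by_contra hcon
  push Not at hcon
  apply hne
  have h1 : Cfsg.layer Γ ≤ Subgroup.centralizer (J : Set Γ) := by
    rw [Cfsg.Agent.Lib.Helper22.layer_le_iff]
    intro D hD
    rw [← Subgroup.commutator_eq_bot_iff_le_centralizer, Subgroup.commutator_comm]
    exact hcon D hD
  have h2 : ⁅J, J⁆ = ⊥ := by
    rw [Subgroup.commutator_eq_bot_iff_le_centralizer]
    exact hJE.trans h1
  rw [← hperf, h2]

end Small

section Bal

variable {Γ : Type u} [Group Γ] [Finite Γ]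

/-- A subgroup `K ≤ C` that is a component of `C` of order divisible by `p` is a `p`-component of
`C`. -/
theorem isPCompLike_of_isComponent {p : ℕ} [Fact p.Prime] {K C : Subgroup Γ}
    (hKC : K ≤ C) (hK : Cfsg.IsComponent (K.subgroupOf C)) (hp : p ∣ Nat.card K) :
    IsPCompLike p C K := by
  have hne : (K.subgroupOf C).map (QuotientGroup.mk' (Cfsg.pPrimeCore p ↥C)) ≠ ⊥ := by
    intro h0
    rw [Subgroup.map_eq_bot_iff, QuotientGroup.ker_mk'] at h0
    have h1 : Nat.card (K.subgroupOf C) ∣ Nat.card (Cfsg.pPrimeCore p ↥C) :=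
      Subgroup.card_dvd_of_le h0
    rw [Nat.card_congr (Subgroup.subgroupOfEquivOfLe hKC).toEquiv] at h1
    exact (Nat.Prime.coprime_iff_not_dvd Fact.out).mp
      (Cfsg.Agent.Lib.Helper22.card_pPrimeCore_coprime p ↥C).symm (hp.trans h1)
  have h2 := isPCompLike_of_isPComponent
    (Cfsg.Agent.Lib.Helper22.isPComponent_of_isComponent hK hne)
  rw [Subgroup.subgroupOf_map_subtype, inf_of_le_left hKC] at h2
  exact h2

/-- If `L_{2'}(Γ)` centralizes `O(Γ)`, every `2`-component of the centralizer of an involution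
lies in `E(Γ)`. -/
theorem le_layer_of_isPCompLike_centralizer {t : Γ} (ht : orderOf t = 2)
    (hBp : ⁅Cfsg.pLayer 2 Γ, Cfsg.pPrimeCore 2 Γ⁆ = ⊥) {J : Subgroup Γ}
    (hJ : IsPCompLike 2 (Subgroup.centralizer ({t} : Set Γ)) J) : J ≤ Cfsg.layer Γ := by
  have : Fact (Nat.Prime 2) := ⟨Nat.prime_two⟩
  have hT : IsPGroup 2 ↥(Subgroup.zpowers t) := by
    apply IsPGroup.of_card (n := 1)
    rw [Nat.card_zpowers, ht, pow_one]
  have h1 := nBal_two Γ (Subgroup.zpowers t) hT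
  rw [normalizer_zpowers_eq_centralizer_of_orderOf_two ht] at h1
  have h2 : J.subgroupOf (Subgroup.centralizer ({t} : Set Γ)) ≤
      Cfsg.pLayer 2 ↥(Subgroup.centralizer ({t} : Set Γ)) := le_sSup hJ.isPComponent
  have h3 : J ≤ Cfsg.pLayer 2 Γ := by
    have h4 := Subgroup.map_mono (f := (Subgroup.centralizer ({t} : Set Γ)).subtype) h2
    rw [Subgroup.subgroupOf_map_subtype, inf_of_le_left hJ.1] at h4
    exact h4.trans h1
  refine h3.trans ?_
  apply sSup_le
  intro P hP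
  apply Cfsg.Agent.Lib.Helper22.component_le_layer
  refine ⟨hP.1, (Cfsg.Agent.Lib.Helper22.IsPComponent.isQuasisimple_iff hP).mpr ?_⟩
  rw [eq_bot_iff, ← hBp]
  exact Subgroup.commutator_mono (le_sSup hP)
    (Cfsg.Agent.Lib.Helper22.pPrimeCore_map_subtype_le_of_subnormal 2 hP.1)

end Bal

section Max

variable {Γ : Type u} [Group Γ] [Finite Γ]

/-- **Maximal components are components of centralizers of commuting involutions.** Let `J` be a
component of `C_Γ(t)`, `t² = 1`, inside `E(Γ)`, of order at least the order of every component of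
`Γ`; let `B ∋ t` be an elementary abelian `2`-subgroup centralizing `J` whose order bounds the
order of the elementary abelian `2`-subgroups of `C_Γ(D)` for every component `D` of `Γ` with
`|D| = |J|`; and suppose `J` contains a noncyclic elementary abelian `2`-subgroup. Then `J` is a
component of `Γ`. -/
theorem isComponent_of_maximal {t : Γ} (ht : t * t = 1)
    {J BΓ : Subgroup Γ} (hJE : J ≤ Cfsg.layer Γ) (hJt : J ≤ Subgroup.centralizer ({t} : Set Γ))
    (hJ : Cfsg.IsComponent (J.subgroupOf (Subgroup.centralizer ({t} : Set Γ))))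
    (hBc : ∀ x ∈ BΓ, ∀ y ∈ BΓ, x * y = y * x) (hB2 : ∀ x ∈ BΓ, x * x = 1) (htB : t ∈ BΓ)
    (hBJ : ∀ x ∈ BΓ, ∀ j ∈ J, x * j = j * x)
    (hmax : ∀ D : Subgroup Γ, Cfsg.IsComponent D → Nat.card D ≤ Nat.card J ∧
      (Nat.card D = Nat.card J → ∀ E : Subgroup Γ, E ≤ Subgroup.centralizer (D : Set Γ) →
        (∀ x ∈ E, ∀ y ∈ E, x * y = y * x) → (∀ x ∈ E, x * x = 1) → Nat.card E ≤ Nat.card BΓ))
    (hA : ∃ A : Subgroup Γ, A ≤ J ∧ (∀ x ∈ A, ∀ y ∈ A, x * y = y * x) ∧ (∀ x ∈ A, x * x = 1) ∧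
      2 < Nat.card A) : Cfsg.IsComponent J := by
  classical
  have hperf : ⁅J, J⁆ = J := by
    have h1 := Cfsg.Agent.Lib.Helper22.IsComponent.perfect hJ
    have h2 := congrArg (Subgroup.map (Subgroup.centralizer ({t} : Set Γ)).subtype) h1
    rw [Subgroup.map_commutator, Subgroup.subgroupOf_map_subtype, inf_of_le_left hJt] at h2
    exact h2
  obtain ⟨A, hAJ, hAc, hA2, hAcard⟩ := hA
  have hJne : J ≠ ⊥ := by
    intro h0
    have h1 : A = ⊥ := by
      rw [eq_bot_iff, ← h0]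
      exact hAJ
    rw [h1, Subgroup.card_bot] at hAcard
    omega
  obtain ⟨D, hD, hJD⟩ := exists_component_not_commute hJE hperf hJne
  have hJle := le_sup_conj_of_component_centralizer ht hJE hJt hJ hD hJD
  have hDcard := (hmax D hD).1
  by_cases hDt : D.map (MulAut.conj t).toMonoidHom = D
  · rw [hDt, sup_idem] at hJle
    have hJD' : J = D := Subgroup.eq_of_le_of_card_ge hJle hDcard
    rw [hJD']
    exact hD
  · exfalso
    have hDt0 : Cfsg.IsComponent (D.map (MulAut.conj t).toMonoidHom) :=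
      Cfsg.Agent.Lib.Helper22.isComponent_map_equiv (MulAut.conj t) hD
    have hDDt : ⁅D, D.map (MulAut.conj t).toMonoidHom⁆ = ⊥ :=
      Cfsg.Agent.Lib.Helper22.components_commute hD hDt0 (Ne.symm hDt)
    have hcomm : ∀ d ∈ D, ∀ e ∈ D, d * (t * e * t⁻¹) = (t * e * t⁻¹) * d := fun d hd e he =>
      Cfsg.Agent.Lib.Helper22.comm_of_commutator_eq_bot hDDt d hd _ ⟨e, he, rfl⟩
    have hJδ0 := le_range_diagHom ht hperf hJt hcomm hJle
    obtain ⟨δ, hδdef⟩ : ∃ δ : ↥D →* Γ, δ = diagHom t D hcomm := ⟨_, rfl⟩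
    rw [← hδdef] at hJδ0
    have hδ : ∀ d : ↥D, δ d = (d : Γ) * (t * (d : Γ) * t⁻¹) := fun d => by
      rw [hδdef]
      rfl
    have h1 : Nat.card δ.range ≤ Nat.card D :=
      Nat.card_le_card_of_surjective δ.rangeRestrict δ.rangeRestrict_surjective
    have h2 : Nat.card J ≤ Nat.card δ.range := Subgroup.card_le_of_le hJδ0
    have hcardD : Nat.card D = Nat.card J := le_antisymm hDcard (h2.trans h1)
    have hcardR : Nat.card δ.range = Nat.card D := le_antisymm h1 (by rw [hcardD]; exact h2)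
    have hJeq : J = δ.range := Subgroup.eq_of_le_of_card_ge hJδ0 (by rw [hcardR, hcardD])
    have hinj : Function.Injective δ := by
      rw [← MonoidHom.ker_eq_bot_iff, ← Subgroup.card_eq_one]
      have h3 := Subgroup.card_mul_index δ.ker
      rw [Subgroup.index_ker, hcardR] at h3
      have hpos : 0 < Nat.card D := Nat.card_pos
      exact Nat.eq_of_mul_eq_mul_right hpos (by rw [h3, one_mul])
    obtain ⟨Dt, hDtdef⟩ : ∃ Dt : Subgroup Γ, Dt = D.map (MulAut.conj t).toMonoidHom := ⟨_, rfl⟩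
    rw [← hDtdef] at hDt0 hDDt hJle
    have hBt : ∀ x ∈ BΓ, x * t = t * x := fun x hx => hBc x hx t htB
    -- the only components not centralized by `J` are `D` and `D^t`
    have hX : ∀ L : Subgroup Γ, Cfsg.IsComponent L → ⁅J, L⁆ ≠ ⊥ → L = D ∨ L = Dt := by
      intro L hL hJL
      by_contra hcon
      push Not at hcon
      apply hJL
      have h3 : D ⊔ Dt ≤ Subgroup.centralizer (L : Set Γ) := by
        apply sup_le
        · rw [← Subgroup.commutator_eq_bot_iff_le_centralizer]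
          exact Cfsg.Agent.Lib.Helper22.components_commute hD hL (Ne.symm hcon.1)
        · rw [← Subgroup.commutator_eq_bot_iff_le_centralizer]
          exact Cfsg.Agent.Lib.Helper22.components_commute hDt0 hL (Ne.symm hcon.2)
      rw [Subgroup.commutator_eq_bot_iff_le_centralizer]
      exact hJle.trans h3
    have hBD : ∀ β ∈ BΓ, D.map (MulAut.conj β).toMonoidHom = D ∨
        D.map (MulAut.conj β).toMonoidHom = Dt := by
      intro β hβ
      apply hX _ (Cfsg.Agent.Lib.Helper22.isComponent_map_equiv (MulAut.conj β) hD)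
      intro h0
      apply hJD
      apply Cfsg.Agent.Lib.Helper22.commutator_eq_bot_of_comm
      intro j hj d hd
      have h4 : j * (β * d * β⁻¹) = (β * d * β⁻¹) * j :=
        Cfsg.Agent.Lib.Helper22.comm_of_commutator_eq_bot h0 j hj (β * d * β⁻¹) ⟨d, hd, rfl⟩
      have h5 := hBJ β hβ j hj
      calc j * d = β⁻¹ * (β * j) * d := by group
        _ = β⁻¹ * (j * β) * d := by rw [h5]
        _ = β⁻¹ * (j * (β * d * β⁻¹)) * β := by group
        _ = β⁻¹ * ((β * d * β⁻¹) * j) * β := by rw [h4]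
        _ = d * (β⁻¹ * (j * β)) := by group
        _ = d * (β⁻¹ * (β * j)) := by rw [h5]
        _ = d * j := by group
    obtain ⟨B₀, hB₀def⟩ : ∃ B₀ : Subgroup Γ, B₀ = BΓ ⊓ Subgroup.normalizer (D : Set Γ) :=
      ⟨_, rfl⟩
    have hB₀B : B₀ ≤ BΓ := hB₀def ▸ inf_le_left
    have hB₀N : B₀ ≤ Subgroup.normalizer (D : Set Γ) := hB₀def ▸ inf_le_right
    -- `B₀` centralizes `D`
    have hB₀D : ∀ β ∈ B₀, ∀ d ∈ D, β * d = d * β := by
      intro β hβ d hd
      have hd' : β * d * β⁻¹ ∈ D := (Subgroup.mem_normalizer_iff.mp (hB₀N hβ) d).mp hd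
      have h3 : δ ⟨β * d * β⁻¹, hd'⟩ = δ ⟨d, hd⟩ := by
        rw [hδ, hδ]
        show β * d * β⁻¹ * (t * (β * d * β⁻¹) * t⁻¹) = d * (t * d * t⁻¹)
        have h4 : β * t = t * β := hBt β (hB₀B hβ)
        have h5 : β * (d * (t * d * t⁻¹)) = (d * (t * d * t⁻¹)) * β := by
          apply hBJ β (hB₀B hβ)
          rw [hJeq]
          exact ⟨⟨d, hd⟩, hδ _⟩
        have h4' : β⁻¹ * t⁻¹ = t⁻¹ * β⁻¹ := by
          rw [← mul_inv_rev, ← mul_inv_rev, h4]
        calc β * d * β⁻¹ * (t * (β * d * β⁻¹) * t⁻¹)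
            = β * d * β⁻¹ * ((t * β) * d * (β⁻¹ * t⁻¹)) := by group
          _ = β * d * β⁻¹ * ((β * t) * d * (t⁻¹ * β⁻¹)) := by rw [h4, h4']
          _ = (β * (d * (t * d * t⁻¹))) * β⁻¹ := by group
          _ = ((d * (t * d * t⁻¹)) * β) * β⁻¹ := by rw [h5]
          _ = d * (t * d * t⁻¹) := by group
      have h6 : β * d * β⁻¹ = d := congrArg Subtype.val (hinj h3)
      calc β * d = (β * d * β⁻¹) * β := by group
        _ = d * β := by rw [h6]
    -- `|B : B₀| ≤ 2`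
    have htinv : t⁻¹ = t := inv_eq_of_mul_eq_one_left ht
    have hcardB : Nat.card BΓ ≤ 2 * Nat.card B₀ := by
      have h3 := Subgroup.card_mul_index (B₀.subgroupOf BΓ)
      rw [Nat.card_congr (Subgroup.subgroupOfEquivOfLe hB₀B).toEquiv] at h3
      have h4 : (B₀.subgroupOf BΓ).index ≤ 2 := by
        rw [Subgroup.index_eq_card]
        obtain ⟨f, hf1, hf2⟩ : ∃ f : Bool → ↥BΓ ⧸ B₀.subgroupOf BΓ,
            f true = QuotientGroup.mk ⟨t, htB⟩ ∧ f false = QuotientGroup.mk 1 :=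
          ⟨fun c => if c then QuotientGroup.mk ⟨t, htB⟩ else QuotientGroup.mk 1, rfl, rfl⟩
        have hf : Function.Surjective f := by
          intro q
          induction q using QuotientGroup.induction_on with
          | H β =>
            rcases hBD β β.2 with h | h
            · refine ⟨false, ?_⟩
              rw [hf2, QuotientGroup.eq, inv_one, one_mul, Subgroup.mem_subgroupOf, hB₀def]
              exact ⟨β.2, Subgroup.mem_normalizer_iff_map_conj_eq.mpr h⟩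
            · refine ⟨true, ?_⟩
              rw [hf1, QuotientGroup.eq, Subgroup.mem_subgroupOf, hB₀def]
              refine ⟨BΓ.mul_mem (BΓ.inv_mem htB) β.2, ?_⟩
              refine Subgroup.mem_normalizer_iff_map_conj_eq.mpr ?_
              show D.map (MulAut.conj (t⁻¹ * (β : Γ))).toMonoidHom = D
              have h5 : D.map (MulAut.conj (t⁻¹ * (β : Γ))).toMonoidHom =
                  (D.map (MulAut.conj (β : Γ)).toMonoidHom).map (MulAut.conj t⁻¹).toMonoidHom := by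
                ext x
                rw [Cfsg.Agent.Lib.Helper22.mem_map_conj_iff,
                  Cfsg.Agent.Lib.Helper22.mem_map_conj_iff,
                  Cfsg.Agent.Lib.Helper22.mem_map_conj_iff]
                have e : (t⁻¹ * (β : Γ))⁻¹ * x * (t⁻¹ * (β : Γ)) =
                    (β : Γ)⁻¹ * ((t⁻¹)⁻¹ * x * t⁻¹) * (β : Γ) := by group
                rw [e]
              rw [h5, h, htinv, hDtdef]
              exact map_conj_map_conj_of_mul_self ht D
        have h5 := Nat.card_le_card_of_surjective f hf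
        have hb2 : Nat.card Bool = 2 := by
          rw [Nat.card_eq_fintype_card, Fintype.card_bool]
        rw [hb2] at h5
        exact h5
      calc Nat.card BΓ = Nat.card B₀ * (B₀.subgroupOf BΓ).index := h3.symm
        _ ≤ Nat.card B₀ * 2 := Nat.mul_le_mul_left _ h4
        _ = 2 * Nat.card B₀ := Nat.mul_comm _ _
    -- the preimage of `A` in `D`
    obtain ⟨AD', hAD'def⟩ : ∃ AD' : Subgroup Γ, AD' = (A.comap δ).map D.subtype := ⟨_, rfl⟩
    have hAD'mem : ∀ x ∈ AD', ∃ hx : x ∈ D, δ ⟨x, hx⟩ ∈ A := by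
      rw [hAD'def]
      rintro _ ⟨d, hd, rfl⟩
      exact ⟨d.2, hd⟩
    have hAD'D : AD' ≤ D := fun x hx => (hAD'mem x hx).1
    have hAD'c : ∀ x ∈ AD', ∀ y ∈ AD', x * y = y * x := by
      intro x hx y hy
      obtain ⟨hxD, hxA⟩ := hAD'mem x hx
      obtain ⟨hyD, hyA⟩ := hAD'mem y hy
      have h3 : δ (⟨x, hxD⟩ * ⟨y, hyD⟩) = δ (⟨y, hyD⟩ * ⟨x, hxD⟩) := by
        rw [map_mul, map_mul]
        exact hAc _ hxA _ hyA
      exact congrArg Subtype.val (hinj h3)
    have hAD'2 : ∀ x ∈ AD', x * x = 1 := by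
      intro x hx
      obtain ⟨hxD, hxA⟩ := hAD'mem x hx
      have h3 : δ (⟨x, hxD⟩ * ⟨x, hxD⟩) = δ 1 := by
        rw [map_mul, map_one]
        exact hA2 _ hxA
      exact congrArg Subtype.val (hinj h3)
    have hAD'card : Nat.card A ≤ Nat.card AD' := by
      rw [hAD'def, Subgroup.card_map_of_injective D.subtype_injective]
      obtain ⟨g, hg⟩ : ∃ g : ↥(A.comap δ) → ↥A, ∀ d, (g d : Γ) = δ d :=
        ⟨fun d => ⟨δ d, d.2⟩, fun _ => rfl⟩
      have hgs : Function.Surjective g := by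
        rintro ⟨x, hx⟩
        have hxr : x ∈ δ.range := hJeq ▸ hAJ hx
        obtain ⟨d, rfl⟩ := hxr
        exact ⟨⟨d, hx⟩, Subtype.ext (hg _)⟩
      exact Nat.card_le_card_of_surjective g hgs
    have hAB₀ : ∀ x ∈ AD', ∀ β ∈ B₀, x * β = β * x := fun x hx β hβ =>
      (hB₀D β hβ x (hAD'D hx)).symm
    have hdisj : Disjoint AD' B₀ := by
      rw [Subgroup.disjoint_def]
      intro x hx hxB
      obtain ⟨hxD, hxA⟩ := hAD'mem x hx
      have h3 : δ ⟨x, hxD⟩ = δ 1 := by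
        rw [hδ, map_one]
        show x * (t * x * t⁻¹) = 1
        have h4 : x * t = t * x := hBt x (hB₀B hxB)
        calc x * (t * x * t⁻¹) = x * ((t * x) * t⁻¹) := by group
          _ = x * ((x * t) * t⁻¹) := by rw [h4]
          _ = x * x := by group
          _ = 1 := hB2 x (hB₀B hxB)
      exact congrArg Subtype.val (hinj h3)
    have hcard' : Nat.card AD' * Nat.card B₀ ≤ Nat.card ↥(AD' ⊔ B₀) := by
      have hinj2 := Subgroup.mul_injective_of_disjoint hdisj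
      obtain ⟨g, hg⟩ : ∃ g : ↥AD' × ↥B₀ → ↥(AD' ⊔ B₀), ∀ q, (g q : Γ) = (q.1 : Γ) * (q.2 : Γ) :=
        ⟨fun q => ⟨(q.1 : Γ) * (q.2 : Γ), Subgroup.mul_mem _
          (le_sup_left (a := AD') (b := B₀) q.1.2) (le_sup_right (a := AD') (b := B₀) q.2.2)⟩,
          fun _ => rfl⟩
      have hgi : Function.Injective g := by
        intro q r hqr
        apply hinj2
        have h3 := congrArg Subtype.val hqr
        rw [hg, hg] at h3
        exact h3
      have h4 := Nat.card_le_card_of_injective g hgi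
      rw [Nat.card_prod] at h4
      exact h4
    obtain ⟨hB'c, hB'2⟩ := elemAb_sup hAD'c (fun x hx y hy => hBc x (hB₀B hx) y (hB₀B hy)) hAB₀
      hAD'2 (fun x hx => hB2 x (hB₀B hx))
    have hB'Dt : AD' ⊔ B₀ ≤ Subgroup.centralizer (Dt : Set Γ) := by
      apply sup_le
      · refine hAD'D.trans ?_
        rw [← Subgroup.commutator_eq_bot_iff_le_centralizer]
        exact hDDt
      · intro β hβ
        rw [Subgroup.mem_centralizer_iff]
        intro y hy
        have hy' : y ∈ D.map (MulAut.conj t).toMonoidHom := hDtdef ▸ hy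
        obtain ⟨d, hd, rfl⟩ := hy'
        show (t * d * t⁻¹) * β = β * (t * d * t⁻¹)
        have h4 : β * t = t * β := hBt β (hB₀B hβ)
        have h5 := hB₀D β hβ d hd
        have h4' : β * t⁻¹ = t⁻¹ * β := by
          rw [htinv]
          exact h4
        calc (t * d * t⁻¹) * β = t * d * (t⁻¹ * β) := by group
          _ = t * d * (β * t⁻¹) := by rw [h4']
          _ = t * (d * β) * t⁻¹ := by group
          _ = t * (β * d) * t⁻¹ := by rw [h5]
          _ = (t * β) * d * t⁻¹ := by group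
          _ = (β * t) * d * t⁻¹ := by rw [h4]
          _ = β * (t * d * t⁻¹) := by group
    have hcardDt : Nat.card Dt = Nat.card J := by
      rw [hDtdef, Subgroup.card_map_of_injective (MulAut.conj t).injective]
      exact hcardD
    have hfinal := (hmax Dt hDt0).2 hcardDt (AD' ⊔ B₀) hB'Dt hB'c hB'2
    have hB₀pos : 0 < Nat.card B₀ := Nat.card_pos
    have h7 : 3 * Nat.card B₀ ≤ Nat.card AD' * Nat.card B₀ :=
      Nat.mul_le_mul_right _ (by omega)
    have h8 := h7.trans (hcard'.trans (hfinal.trans hcardB))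
    omega

end Max

section Step

variable {G : Type u} [Group G] [Finite G]

/-- **The first step of Aschbacher's component theorem.** -/
theorem component_step (hO : Cfsg.oddCore G = ⊥) (hB : Cfsg.HasBProperty G) (a : G)
    (ha : orderOf a = 2) (K : Subgroup G) (hKa : K ≤ Subgroup.centralizer ({a} : Set G))
    (hK : Cfsg.IsComponent (K.subgroupOf (Subgroup.centralizer ({a} : Set G))))
    (hmax : ∀ y : G, orderOf y = 2 → ∀ K' : Subgroup G, K' ≤ Subgroup.centralizer ({y} : Set G) →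
      Cfsg.IsComponent (K'.subgroupOf (Subgroup.centralizer ({y} : Set G))) →
      Nat.card ↥K' ≤ Nat.card ↥K ∧ (Nat.card ↥K' = Nat.card ↥K → ∀ k : ℕ,
        Cfsg.PRankLE 2 k ↥(Subgroup.centralizer ({a} : Set G) ⊓ Subgroup.centralizer (K : Set G)) →
        Cfsg.PRankLE 2 k
          ↥(Subgroup.centralizer ({y} : Set G) ⊓ Subgroup.centralizer (K' : Set G))))
    (hrk : ¬ Cfsg.PRankLE 2 1 ↥K) (B : Subgroup G)
    (hBle : B ≤ Subgroup.centralizer ({a} : Set G) ⊓ Subgroup.centralizer (K : Set G))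
    (hBel : Cfsg.IsElementaryAbelian 2 B)
    (hBmax : ∀ B' : Subgroup G,
      B' ≤ Subgroup.centralizer ({a} : Set G) ⊓ Subgroup.centralizer (K : Set G) →
      Cfsg.IsElementaryAbelian 2 B' → Nat.card ↥B' ≤ Nat.card ↥B)
    (b : G) (hb : b ∈ B) (hb1 : b ≠ 1) :
    K ≤ Subgroup.centralizer ({b} : Set G) ∧
      Cfsg.IsComponent (K.subgroupOf (Subgroup.centralizer ({b} : Set G))) := by
  classical
  have : Fact (Nat.Prime 2) := ⟨Nat.prime_two⟩
  have hBcomm : ∀ x ∈ B, ∀ y ∈ B, x * y = y * x := isMulCommutative_iff_comm.mp hBel.1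
  have hB2 : ∀ x ∈ B, x * x = 1 := fun x hx => by
    have h1 := hBel.2 x hx
    rw [pow_two] at h1
    exact h1
  have hBK : ∀ x ∈ B, ∀ k ∈ K, k * x = x * k := fun x hx k hk =>
    Subgroup.mem_centralizer_iff.mp (hBle hx).2 k hk
  have hKb : K ≤ Subgroup.centralizer ({b} : Set G) :=
    le_centralizer_singleton_of_mem_centralizer (hBle hb).2
  refine ⟨hKb, ?_⟩
  have hbo : orderOf b = 2 := orderOf_eq_prime (by rw [pow_two]; exact hB2 b hb) hb1
  have haa : a * a = 1 := by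
    have h1 := pow_orderOf_eq_one a
    rw [ha, pow_two] at h1
    exact h1
  have haK : a ∈ Subgroup.centralizer (K : Set G) := mem_centralizer_of_le_centralizer_singleton hKa
  have haCa : a ∈ Subgroup.centralizer ({a} : Set G) := by
    rw [Subgroup.mem_centralizer_iff]
    intro y hy
    rw [Set.mem_singleton_iff] at hy
    rw [hy]
  -- `a ∈ B`
  have haB : a ∈ B := by
    have hBa : ∀ x ∈ B, x * a = a * x := fun x hx =>
      (Subgroup.mem_centralizer_iff.mp (hBle hx).1 a rfl).symm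
    have hz : ∀ x ∈ Subgroup.zpowers a, ∃ k : ℤ, a ^ k = x := fun x hx =>
      Subgroup.mem_zpowers_iff.mp hx
    obtain ⟨hc, h2⟩ := elemAb_sup (H := B) (K := Subgroup.zpowers a) hBcomm
      (fun x hx y hy => by
        obtain ⟨k, rfl⟩ := hz x hx
        obtain ⟨l, rfl⟩ := hz y hy
        exact ((Commute.refl a).zpow_zpow k l).eq)
      (fun x hx y hy => by
        obtain ⟨l, rfl⟩ := hz y hy
        exact (Commute.zpow_right (hBa x hx) l).eq) hB2
      (fun x hx => by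
        obtain ⟨k, rfl⟩ := hz x hx
        rw [← (Commute.refl a).mul_zpow, haa, one_zpow])
    have hle : B ⊔ Subgroup.zpowers a ≤
        Subgroup.centralizer ({a} : Set G) ⊓ Subgroup.centralizer (K : Set G) :=
      sup_le hBle ((Subgroup.zpowers_le).mpr ⟨haCa, haK⟩)
    have hcard := hBmax _ hle ⟨isMulCommutative_iff_comm.mpr hc, fun x hx => by
      rw [pow_two]
      exact h2 x hx⟩
    have heq : B = B ⊔ Subgroup.zpowers a := Subgroup.eq_of_le_of_card_ge le_sup_left hcard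
    rw [heq]
    exact (le_sup_right : Subgroup.zpowers a ≤ _) (Subgroup.mem_zpowers a)
  -- the noncyclic elementary abelian subgroup of `K`
  obtain ⟨A, hAc, hA2, hAcard⟩ : ∃ A : Subgroup ↥K, IsMulCommutative ↥A ∧
      (∀ x ∈ A, x ^ 2 = 1) ∧ 2 < Nat.card A := by
    unfold Cfsg.PRankLE at hrk
    push Not at hrk
    obtain ⟨A, h1, h2, h3⟩ := hrk
    rw [pow_one] at h3
    exact ⟨A, h1, h2, h3⟩
  have h2K : 2 ∣ Nat.card K := by
    have hAp : IsPGroup 2 ↥A := by
      intro g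
      refine ⟨1, ?_⟩
      rw [pow_one]
      apply Subtype.ext
      rw [Subgroup.coe_pow]
      exact hA2 g g.2
    rcases hAp.card_eq_or_dvd with h | h
    · omega
    · exact h.trans (Subgroup.card_subgroup_dvd_card A)
  obtain ⟨k, hk⟩ : ∃ k : ℕ, Nat.card B = 2 ^ k := by
    have hBp : IsPGroup 2 ↥B := by
      intro g
      refine ⟨1, ?_⟩
      rw [pow_one]
      apply Subtype.ext
      rw [Subgroup.coe_pow]
      exact hBel.2 g g.2
    exact IsPGroup.iff_card.mp hBp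
  have hPR : Cfsg.PRankLE 2 k
      ↥(Subgroup.centralizer ({a} : Set G) ⊓ Subgroup.centralizer (K : Set G)) := by
    rw [pRankLE_subgroup_iff]
    intro E hE hc h2
    rw [← hk]
    exact hBmax E hE ⟨isMulCommutative_iff_comm.mpr hc, h2⟩
  have hKpc : IsPCompLike 2 (Subgroup.centralizer ({a} : Set G)) K :=
    isPCompLike_of_isComponent hKa hK h2K
  have hBp0 := hB b hbo
  -- pass to `C = C(b)`
  obtain ⟨C, hCdef⟩ : ∃ C : Subgroup G, C = Subgroup.centralizer ({b} : Set G) := ⟨_, rfl⟩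
  rw [← hCdef] at hKb hBp0 ⊢
  have hmaxb : ∀ K' : Subgroup G, K' ≤ C → Cfsg.IsComponent (K'.subgroupOf C) →
      Nat.card ↥K' ≤ Nat.card ↥K ∧ (Nat.card ↥K' = Nat.card ↥K →
        Cfsg.PRankLE 2 k ↥(C ⊓ Subgroup.centralizer (K' : Set G))) := by
    intro K' hK'C hK'
    have h1 := hmax b hbo K'
    rw [← hCdef] at h1
    have h2 := h1 hK'C hK'
    exact ⟨h2.1, fun heq => h2.2 heq k hPR⟩
  have hBC : B ≤ C := by
    intro x hx
    rw [hCdef, Subgroup.mem_centralizer_iff]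
    intro y hy
    rw [Set.mem_singleton_iff] at hy
    rw [hy]
    exact hBcomm b hb x hx
  have haC : a ∈ C := hBC haB
  have hBp : ⁅Cfsg.pLayer 2 ↥C, Cfsg.pPrimeCore 2 ↥C⁆ = ⊥ := by
    rw [hO, le_bot_iff] at hBp0
    exact (Subgroup.map_eq_bot_iff_of_injective _ C.subtype_injective).mp hBp0
  have hto : orderOf (⟨a, haC⟩ : ↥C) = 2 := by
    rw [← Subgroup.orderOf_coe]
    exact ha
  have hKpc3 := (hKpc.of_le (le_inf hKa hKb) inf_le_left).subgroupOf_of_le C hKb
  have hEq : (Subgroup.centralizer ({a} : Set G) ⊓ C).subgroupOf C =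
      Subgroup.centralizer ({(⟨a, haC⟩ : ↥C)} : Set ↥C) := by
    ext z
    rw [Subgroup.mem_subgroupOf, Subgroup.mem_centralizer_singleton_iff]
    constructor
    · rintro ⟨h1, -⟩
      apply Subtype.ext
      exact Subgroup.mem_centralizer_singleton_iff.mp h1
    · intro h
      exact ⟨Subgroup.mem_centralizer_singleton_iff.mpr (congrArg Subtype.val h), z.2⟩
  rw [hEq] at hKpc3
  have hJlayer := le_layer_of_isPCompLike_centralizer hto hBp hKpc3
  have hJcomp : Cfsg.IsComponent ((K.subgroupOf C).subgroupOf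
      (Subgroup.centralizer ({(⟨a, haC⟩ : ↥C)} : Set ↥C))) :=
    ⟨hKpc3.2.1, Cfsg.Agent.Lib.Helper22.isQuasisimple_of_mulEquiv
      (((Subgroup.subgroupOfEquivOfLe hKpc3.1).trans (Subgroup.subgroupOfEquivOfLe hKb)).trans
        (Subgroup.subgroupOfEquivOfLe hKa).symm) hK.2⟩
  have hcJ : Nat.card (K.subgroupOf C) = Nat.card K :=
    Nat.card_congr (Subgroup.subgroupOfEquivOfLe hKb).toEquiv
  have hcB : Nat.card (B.subgroupOf C) = Nat.card B :=
    Nat.card_congr (Subgroup.subgroupOfEquivOfLe hBC).toEquiv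
  apply isComponent_of_maximal (t := ⟨a, haC⟩) (BΓ := B.subgroupOf C) (Subtype.ext haa)
    hJlayer hKpc3.1 hJcomp
  · intro x hx y hy
    exact Subtype.ext (hBcomm _ (Subgroup.mem_subgroupOf.mp hx) _ (Subgroup.mem_subgroupOf.mp hy))
  · intro x hx
    exact Subtype.ext (hB2 _ (Subgroup.mem_subgroupOf.mp hx))
  · exact Subgroup.mem_subgroupOf.mpr haB
  · intro x hx j hj
    exact Subtype.ext
      (hBK _ (Subgroup.mem_subgroupOf.mp hx) _ (Subgroup.mem_subgroupOf.mp hj)).symm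
  · intro D hD
    have hcD : Nat.card (D.map C.subtype) = Nat.card D :=
      Subgroup.card_map_of_injective C.subtype_injective
    have hDsub : (D.map C.subtype).subgroupOf C = D :=
      Subgroup.comap_map_eq_self_of_injective C.subtype_injective D
    have h1 := hmaxb (D.map C.subtype) (Subgroup.map_subtype_le D) (by rw [hDsub]; exact hD)
    rw [hcD] at h1
    rw [hcJ]
    refine ⟨h1.1, fun heq E hE hEc hE2 => ?_⟩
    have h2 := h1.2 heq
    have h3 := pRankLE_subgroup_iff.mp h2 (E.map C.subtype) ?_ ?_ ?_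
    · rw [Subgroup.card_map_of_injective C.subtype_injective] at h3
      rw [hcB, hk]
      exact h3
    · refine le_inf (Subgroup.map_subtype_le E) ?_
      rintro _ ⟨e, he, rfl⟩
      rw [Subgroup.mem_centralizer_iff]
      rintro _ ⟨d, hd, rfl⟩
      exact congrArg Subtype.val (Subgroup.mem_centralizer_iff.mp (hE he) d hd)
    · rintro _ ⟨x, hx, rfl⟩ _ ⟨y, hy, rfl⟩
      exact congrArg Subtype.val (hEc x hx y hy)
    · rintro _ ⟨x, hx, rfl⟩
      rw [pow_two]
      exact congrArg Subtype.val (hE2 x hx)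
  · have hAC : A.map K.subtype ≤ C := (Subgroup.map_subtype_le A).trans hKb
    refine ⟨(A.map K.subtype).subgroupOf C, ?_, ?_, ?_, ?_⟩
    · intro x hx
      exact Subgroup.mem_subgroupOf.mpr (Subgroup.map_subtype_le A (Subgroup.mem_subgroupOf.mp hx))
    · intro x hx y hy
      obtain ⟨x', hx', hxe⟩ := Subgroup.mem_subgroupOf.mp hx
      obtain ⟨y', hy', hye⟩ := Subgroup.mem_subgroupOf.mp hy
      apply Subtype.ext
      show (x : G) * (y : G) = (y : G) * (x : G)
      rw [← hxe, ← hye]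
      exact congrArg Subtype.val (isMulCommutative_iff_comm.mp hAc x' hx' y' hy')
    · intro x hx
      obtain ⟨x', hx', hxe⟩ := Subgroup.mem_subgroupOf.mp hx
      apply Subtype.ext
      show (x : G) * (x : G) = 1
      rw [← hxe]
      have h1 := congrArg Subtype.val (hA2 x' hx')
      rw [Subgroup.coe_pow, pow_two] at h1
      exact h1
    · rw [Nat.card_congr (Subgroup.subgroupOfEquivOfLe hAC).toEquiv,
        Subgroup.card_map_of_injective K.subtype_injective]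
      exact hAcard

end Step

end Cfsg.Agent.Lib.Helper31
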