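import Mathlib
import Cfsg.Prelude.Def_Balance
import Cfsg.Agent.S0058
import Cfsg.Agent.Lib.Helper31.CompStep
import Cfsg.Agent.Lib.Helper22.PComp
import Cfsg.Agent.Lib.Helper22.Fstar

/-!
Signalizer functors on the reduced rank-2 commuting graph (helper31).

`theta_eq_bot_of_ssft`: the statement of S1294, proved from the frozen statement of the solvable
signalizer functor theorem (S0217) for the same group and prime (`SSFTStatement`).
-/

set_option autoImplicit false

namespace Cfsg.Agent.Lib.Helper31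

open Cfsg

section rankgraph

variable {G : Type*} [Group G]

/-- The frozen statement of the solvable signalizer functor theorem (S0217), for one group and
one prime. -/
def SSFTStatement (G : Type*) [Group G] (p : ℕ) : Prop :=
  ∀ (A : Subgroup G), (∀ a ∈ A, ∀ b ∈ A, a * b = b * a) → (∀ a ∈ A, a ^ p = 1) →
    p ^ 3 ≤ Nat.card A → ∀ (θ : G → Subgroup G),
    (∀ a ∈ A, a ≠ 1 → θ a ≤ Subgroup.centralizer {a}) →
    (∀ a ∈ A, a ≠ 1 → ¬ p ∣ Nat.card (θ a)) →
    (∀ a ∈ A, a ≠ 1 → ∀ b ∈ A, ∀ x ∈ θ a, b * x * b⁻¹ ∈ θ a) →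
    (∀ a ∈ A, a ≠ 1 → Group.IsSolvable (θ a)) →
    (∀ a ∈ A, a ≠ 1 → ∀ b ∈ A, b ≠ 1 → θ a ⊓ Subgroup.centralizer {b} ≤ θ b) →
    ¬ p ∣ Nat.card ↥(⨆ a : {a : G // a ∈ A ∧ a ≠ 1}, θ a) ∧
      ∀ a ∈ A, a ≠ 1 → (⨆ b : {a : G // a ∈ A ∧ a ≠ 1}, θ b) ⊓ Subgroup.centralizer {a} = θ a

/-- The subgroup generated by the values of `θ` on the non-identity elements of `A`. -/
def sigW (θ : G → Subgroup G) (A : Subgroup G) : Subgroup G :=
  ⨆ a : {a : G // a ∈ A ∧ a ≠ 1}, θ (a : G)

theorem le_sigW {θ : G → Subgroup G} {A : Subgroup G} {a : G} (ha : a ∈ A) (ha1 : a ≠ 1) :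
    θ a ≤ sigW θ A :=
  le_iSup (fun a : {a : G // a ∈ A ∧ a ≠ 1} => θ (a : G)) ⟨a, ha, ha1⟩

theorem sigW_le {θ : G → Subgroup G} {A : Subgroup G} {K : Subgroup G}
    (h : ∀ a ∈ A, a ≠ 1 → θ a ≤ K) : sigW θ A ≤ K :=
  iSup_le (fun a => h a.1 a.2.1 a.2.2)

theorem sigW_mono {θ : G → Subgroup G} {E A : Subgroup G} (h : E ≤ A) : sigW θ E ≤ sigW θ A :=
  sigW_le (fun _ ha ha1 => le_sigW (h ha) ha1)

/-- The join of two elementary abelian `p`-subgroups that commute is elementary abelian. -/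
theorem elemAb_sup_p {p : ℕ} {H K : Subgroup G} (hH : IsElementaryAbelian p H)
    (hK : IsElementaryAbelian p K) (hHK : ∀ x ∈ H, ∀ y ∈ K, x * y = y * x) :
    IsElementaryAbelian p (H ⊔ K) := by
  have cH := isMulCommutative_iff_comm.mp hH.1
  have cK := isMulCommutative_iff_comm.mp hK.1
  constructor
  · rw [isMulCommutative_iff_comm]
    intro x hx y hy
    obtain ⟨h, hh, k, hk, rfl⟩ := Cfsg.Agent.Lib.Helper22.mem_sup_of_comm hHK hx
    obtain ⟨h', hh', k', hk', rfl⟩ := Cfsg.Agent.Lib.Helper22.mem_sup_of_comm hHK hy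
    have c1 := hHK h' hh' k hk
    have c2 := cH h hh h' hh'
    have c3 := cK k hk k' hk'
    have c4 := hHK h hh k' hk'
    calc h * k * (h' * k') = h * (k * h') * k' := by group
      _ = h * (h' * k) * k' := by rw [c1]
      _ = (h * h') * (k * k') := by group
      _ = (h' * h) * (k' * k) := by rw [c2, c3]
      _ = h' * (h * k') * k := by group
      _ = h' * (k' * h) * k := by rw [c4]
      _ = h' * k' * (h * k) := by group
  · intro x hx
    obtain ⟨h, hh, k, hk, rfl⟩ := Cfsg.Agent.Lib.Helper22.mem_sup_of_comm hHK hx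
    have hc : Commute h k := hHK h hh k hk
    rw [hc.mul_pow, hH.2 h hh, hK.2 k hk, one_mul]

theorem isPGroup_of_elemAb {p : ℕ} {A : Subgroup G} (hA : IsElementaryAbelian p A) :
    IsPGroup p A := by
  intro g
  refine ⟨1, ?_⟩
  rw [pow_one]
  exact Subtype.ext (by simpa using hA.2 g g.2)

theorem pow_three_le_card_of_lt [Finite G] {p : ℕ} [hp : Fact p.Prime] {A : Subgroup G}
    (hA : IsPGroup p A) (h : p ^ 2 < Nat.card A) : p ^ 3 ≤ Nat.card A := by
  obtain ⟨n, hn⟩ := IsPGroup.iff_card.mp hA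
  rw [hn] at h ⊢
  have h2 : 2 < n := (Nat.pow_lt_pow_iff_right hp.out.one_lt).mp h
  exact Nat.pow_le_pow_right hp.out.pos h2

theorem not_isCyclic_of_elemAb [Finite G] {p : ℕ} [hp : Fact p.Prime] {E : Subgroup G}
    (hE : IsElementaryAbelian p E) (h2 : p ^ 2 ≤ Nat.card E) : ¬ IsCyclic E := by
  intro hc
  obtain ⟨g, hg⟩ := hc.exists_generator
  have h1 : Nat.card E = orderOf g := by
    rw [← Nat.card_zpowers g, (Subgroup.eq_top_iff' _).mpr hg, Subgroup.card_top]
  have h3 : orderOf g ∣ p :=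
    orderOf_dvd_of_pow_eq_one (Subtype.ext (by simpa using hE.2 g g.2))
  have h4 := Nat.le_of_dvd hp.out.pos h3
  have h5 := hp.out.one_lt
  rw [h1] at h2
  nlinarith [pow_two p]

theorem sigW_conj {θ : G → Subgroup G} {E : Subgroup G} (g : G)
    (h : ∀ a ∈ E, a ≠ 1 → θ (g * a * g⁻¹) = (θ a).map (MulAut.conj g).toMonoidHom) :
    sigW θ (E.map (MulAut.conj g).toMonoidHom) = (sigW θ E).map (MulAut.conj g).toMonoidHom := by
  apply le_antisymm
  · apply sigW_le
    rintro _ ⟨a, ha, rfl⟩ ha1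
    have ha1' : a ≠ 1 := by
      rintro rfl
      exact ha1 (by simp)
    have h2 : (MulAut.conj g).toMonoidHom a = g * a * g⁻¹ := by simp [MulAut.conj_apply]
    rw [h2, h a ha ha1']
    exact Subgroup.map_mono (le_sigW ha ha1')
  · rw [Subgroup.map_le_iff_le_comap]
    apply sigW_le
    intro a ha ha1
    rw [← Subgroup.map_le_iff_le_comap, ← h a ha ha1]
    apply le_sigW
    · exact ⟨a, ha, by simp [MulAut.conj_apply]⟩
    · intro h1
      apply ha1
      have h3 := congrArg (fun x => g⁻¹ * x * g) h1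
      simpa [mul_assoc] using h3

theorem elemAb_map_conj {p : ℕ} {A : Subgroup G} (hA : IsElementaryAbelian p A) (g : G) :
    IsElementaryAbelian p (A.map (MulAut.conj g).toMonoidHom) := by
  have cA := isMulCommutative_iff_comm.mp hA.1
  constructor
  · rw [isMulCommutative_iff_comm]
    rintro _ ⟨x, hx, rfl⟩ _ ⟨y, hy, rfl⟩
    rw [← map_mul, ← map_mul, cA x hx y hy]
  · rintro _ ⟨x, hx, rfl⟩
    rw [← map_pow, hA.2 x hx, map_one]

/-- An elementary abelian subgroup of order at least `p ^ 3` is a vertex of the reduced rank-2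
graph. -/
theorem isRankGraphVertex_of_rank3 [Finite G] {p : ℕ} [hp : Fact p.Prime] {A : Subgroup G}
    (hA : IsElementaryAbelian p A) (h3 : p ^ 3 ≤ Nat.card A) : IsRankGraphVertex p 2 A := by
  have cA := isMulCommutative_iff_comm.mp hA.1
  have hlt : p ^ 2 < p ^ 3 := Nat.pow_lt_pow_right hp.out.one_lt (by norm_num)
  refine ⟨hA, by omega, ?_⟩
  intro h
  rw [pRankLE_subgroup_iff] at h
  have h1 := h A (fun y hy => Subgroup.mem_centralizer_iff.mpr (fun x hx => cA x hx y hy)) cA hA.2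
  omega

/-- S1294 from the frozen statement of S0217. -/
theorem theta_eq_bot_of_ssft [Finite G] (p : ℕ) [hpf : Fact p.Prime] (hS : SSFTStatement G p)
    (hO : Cfsg.pPrimeCore p G = ⊥)
    (hconn : Cfsg.IsRankGraphConnected p 2 G) (θ : G → Subgroup G)
    (hC : ∀ a : G, (orderOf a = p ∧ ¬ Cfsg.PRankLE p 2 ↥(Subgroup.centralizer ({a} : Set G))) →
      θ a ≤ Subgroup.centralizer ({a} : Set G) ∧ ¬ p ∣ Nat.card ↥(θ a) ∧
        Group.IsSolvable ↥(θ a))
    (heq : ∀ a g : G,
      (orderOf a = p ∧ ¬ Cfsg.PRankLE p 2 ↥(Subgroup.centralizer ({a} : Set G))) →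
      θ (g * a * g⁻¹) = (θ a).map (MulAut.conj g).toMonoidHom)
    (hbal : ∀ a b : G,
      (orderOf a = p ∧ ¬ Cfsg.PRankLE p 2 ↥(Subgroup.centralizer ({a} : Set G))) →
      (orderOf b = p ∧ ¬ Cfsg.PRankLE p 2 ↥(Subgroup.centralizer ({b} : Set G))) →
      a * b = b * a → θ a ⊓ Subgroup.centralizer {b} ≤ θ b)
    (a : G) (ha : (orderOf a = p ∧ ¬ Cfsg.PRankLE p 2 ↥(Subgroup.centralizer ({a} : Set G)))) :
    θ a = ⊥ := by
  have hp := hpf.out
  have hlt : p ^ 2 < p ^ 3 := Nat.pow_lt_pow_right hp.one_lt (by norm_num)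
  -- Step 1: non-identity elements of a rank 3 subgroup are admissible
  have good : ∀ A : Subgroup G, IsElementaryAbelian p A → p ^ 3 ≤ Nat.card A → ∀ x ∈ A, x ≠ 1 →
      (orderOf x = p ∧ ¬ Cfsg.PRankLE p 2 ↥(Subgroup.centralizer ({x} : Set G))) := by
    intro A hA h3 x hx hx1
    refine ⟨orderOf_eq_prime (hA.2 x hx) hx1, ?_⟩
    intro h
    rw [pRankLE_subgroup_iff] at h
    have cA := isMulCommutative_iff_comm.mp hA.1
    have h1 := h A (fun y hy => Subgroup.mem_centralizer_singleton_iff.mpr (cA y hy x hx)) cA hA.2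
    omega
  -- invariance of the values under `A`
  have inv : ∀ A : Subgroup G, IsElementaryAbelian p A → p ^ 3 ≤ Nat.card A → ∀ x ∈ A, x ≠ 1 →
      ∀ b ∈ A, ∀ y ∈ θ x, b * y * b⁻¹ ∈ θ x := by
    intro A hA h3 x hx hx1 b hb y hy
    have cA := isMulCommutative_iff_comm.mp hA.1
    have h1 := heq x b (good A hA h3 x hx hx1)
    have h2 : b * x * b⁻¹ = x := by rw [cA b hb x hx, mul_inv_cancel_right]
    rw [h2] at h1
    rw [h1]
    exact ⟨y, hy, by simp [MulAut.conj_apply]⟩
  -- Step 2: the signalizer functor theorem on `A`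
  have ssft : ∀ A : Subgroup G, IsElementaryAbelian p A → p ^ 3 ≤ Nat.card A →
      ¬ p ∣ Nat.card ↥(sigW θ A) ∧
        ∀ x ∈ A, x ≠ 1 → sigW θ A ⊓ Subgroup.centralizer {x} = θ x := by
    intro A hA h3
    have cA := isMulCommutative_iff_comm.mp hA.1
    exact hS A cA hA.2 h3 θ
      (fun x hx hx1 => (hC x (good A hA h3 x hx hx1)).1)
      (fun x hx hx1 => (hC x (good A hA h3 x hx hx1)).2.1)
      (inv A hA h3)
      (fun x hx hx1 => (hC x (good A hA h3 x hx hx1)).2.2)
      (fun x hx hx1 b hb hb1 =>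
        hbal x b (good A hA h3 x hx hx1) (good A hA h3 b hb hb1) (cA x hx b hb))
  -- Step 3: `W E = W A` for `E ≤ A` of rank at least 2
  have Weq : ∀ E A : Subgroup G, E ≤ A → IsElementaryAbelian p A → p ^ 3 ≤ Nat.card A →
      p ^ 2 ≤ Nat.card E → sigW θ E = sigW θ A := by
    intro E A hEA hA h3 h2
    apply le_antisymm (sigW_mono hEA)
    obtain ⟨hcop, hW⟩ := ssft A hA h3
    have cA := isMulCommutative_iff_comm.mp hA.1
    have hE : IsElementaryAbelian p E :=
      ⟨isMulCommutative_iff_comm.mpr (fun x hx y hy => cA x (hEA hx) y (hEA hy)),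
        fun x hx => hA.2 x (hEA hx)⟩
    have hEc : IsMulCommutative ↥E := hE.1
    have hnc := not_isCyclic_of_elemAb hE h2
    have hconjmem : ∀ b ∈ A, ∀ w ∈ sigW θ A, b * w * b⁻¹ ∈ sigW θ A := by
      intro b hb w hw
      have h1 : sigW θ A ≤ (sigW θ A).comap (MulAut.conj b).toMonoidHom := by
        apply sigW_le
        intro x hx hx1 y hy
        rw [Subgroup.mem_comap]
        have h2 := inv A hA h3 x hx hx1 b hb y hy
        have h4 : (MulAut.conj b).toMonoidHom y = b * y * b⁻¹ := by simp [MulAut.conj_apply]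
        rw [h4]
        exact le_sigW hx hx1 h2
      have h5 := h1 hw
      rw [Subgroup.mem_comap] at h5
      simpa [MulAut.conj_apply] using h5
    have hnorm : E ≤ Subgroup.normalizer (sigW θ A : Set G) :=
      Cfsg.Agent.Lib.Helper22.le_normalizer_of_conj_mem
        (fun b hb w hw => hconjmem b (hEA hb) w hw)
    have hcop' : (Nat.card E).Coprime (Nat.card (sigW θ A)) := by
      obtain ⟨n, hn⟩ := IsPGroup.iff_card.mp (isPGroup_of_elemAb hE)
      rw [hn]
      exact Nat.Coprime.pow_left n ((Nat.Prime.coprime_iff_not_dvd hp).mpr hcop)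
    have hgen := Cfsg.Agent.S0058.result E (sigW θ A) hnc hnorm hcop'
    rw [← hgen]
    apply iSup₂_le
    rintro e ⟨he, he1⟩
    rw [hW e (hEA he) he1]
    exact le_sigW he he1
  -- Step 4: adjacent vertices have the same `W`
  have Wadj : ∀ E F : Subgroup G, IsRankGraphVertex p 2 E → IsRankGraphVertex p 2 F →
      (∀ x ∈ E, ∀ y ∈ F, x * y = y * x) → sigW θ E = sigW θ F := by
    rintro E F ⟨hE, hE2, -⟩ ⟨hF, hF2, -⟩ hEF
    have hA := elemAb_sup_p hE hF hEF
    by_cases h3 : p ^ 3 ≤ Nat.card ↥(E ⊔ F)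
    · rw [Weq E (E ⊔ F) le_sup_left hA h3 hE2, Weq F (E ⊔ F) le_sup_right hA h3 hF2]
    · have hle : Nat.card ↥(E ⊔ F) ≤ p ^ 2 := by
        by_contra hc
        push Not at hc
        exact h3 (pow_three_le_card_of_lt (isPGroup_of_elemAb hA) hc)
      have e1 : E = E ⊔ F := Subgroup.eq_of_le_of_card_ge le_sup_left (hle.trans hE2)
      have e2 : F = E ⊔ F := Subgroup.eq_of_le_of_card_ge le_sup_right (hle.trans hF2)
      have e3 : E = F := e1.trans e2.symm
      rw [e3]
  -- Step 5: all vertices have the same `W`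
  have Wchain : ∀ E F : Subgroup G,
      Relation.ReflTransGen (fun A B : Subgroup G => IsRankGraphVertex p 2 A ∧
        IsRankGraphVertex p 2 B ∧ ∀ a ∈ A, ∀ b ∈ B, a * b = b * a) E F →
      sigW θ E = sigW θ F := by
    intro E F h
    induction h with
    | refl => rfl
    | tail _ hbc ih => exact ih.trans (Wadj _ _ hbc.1 hbc.2.1 hbc.2.2)
  -- Step 6: `W A` is normal and trivial for a rank 3 subgroup `A`
  have Wbot : ∀ A : Subgroup G, IsElementaryAbelian p A → p ^ 3 ≤ Nat.card A →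
      sigW θ A = ⊥ := by
    intro A hA h3
    have hV := isRankGraphVertex_of_rank3 hA h3
    have hconj : ∀ g : G, (sigW θ A).map (MulAut.conj g).toMonoidHom = sigW θ A := by
      intro g
      have hAg := elemAb_map_conj hA g
      have hcard : Nat.card ↥(A.map (MulAut.conj g).toMonoidHom) = Nat.card A :=
        Subgroup.card_map_of_injective (MulAut.conj g).injective
      have hVg := isRankGraphVertex_of_rank3 hAg (by rw [hcard]; exact h3)
      have h1 := Wchain _ _ (hconn A _ hV hVg)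
      have h2 := sigW_conj (θ := θ) (E := A) g
        (fun x hx hx1 => heq x g (good A hA h3 x hx hx1))
      rw [← h2, ← h1]
    have hn : (sigW θ A).Normal := by
      constructor
      intro n hn g
      have h1 : g * n * g⁻¹ ∈ (sigW θ A).map (MulAut.conj g).toMonoidHom :=
        ⟨n, hn, by simp [MulAut.conj_apply]⟩
      rwa [hconj g] at h1
    have hcop : (Nat.card (sigW θ A)).Coprime p :=
      ((Nat.Prime.coprime_iff_not_dvd hp).mpr (ssft A hA h3).1).symm
    have h1 := Cfsg.Agent.Lib.Helper22.le_pPrimeCore_of_normal p hn hcop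
    rw [hO] at h1
    exact le_bot_iff.mp h1
  -- Step 7: put `a` in a rank 3 subgroup
  obtain ⟨hao, har⟩ := ha
  rw [pRankLE_subgroup_iff] at har
  push Not at har
  obtain ⟨B, hBC, hBc, hBp, hBcard⟩ := har
  have hB : IsElementaryAbelian p B := ⟨isMulCommutative_iff_comm.mpr hBc, hBp⟩
  have hap : a ^ p = 1 := by rw [← hao]; exact pow_orderOf_eq_one a
  have hZ : IsElementaryAbelian p (Subgroup.zpowers a) := by
    constructor
    · rw [isMulCommutative_iff_comm]
      intro x hx y hy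
      obtain ⟨i, rfl⟩ := Subgroup.mem_zpowers_iff.mp hx
      obtain ⟨j, rfl⟩ := Subgroup.mem_zpowers_iff.mp hy
      exact zpow_mul_comm a i j
    · intro x hx
      obtain ⟨i, rfl⟩ := Subgroup.mem_zpowers_iff.mp hx
      rw [← zpow_natCast, ← zpow_mul, mul_comm, zpow_mul, zpow_natCast, hap, one_zpow]
  have hZB : ∀ x ∈ Subgroup.zpowers a, ∀ y ∈ B, x * y = y * x := by
    intro x hx y hy
    obtain ⟨i, rfl⟩ := Subgroup.mem_zpowers_iff.mp hx
    have h1 : Commute y a := Subgroup.mem_centralizer_singleton_iff.mp (hBC hy)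
    exact (h1.zpow_right i).symm.eq
  have hA := elemAb_sup_p hZ hB hZB
  have h3 : p ^ 3 ≤ Nat.card ↥(Subgroup.zpowers a ⊔ B) :=
    pow_three_le_card_of_lt (isPGroup_of_elemAb hA)
      (lt_of_lt_of_le hBcard (Subgroup.card_le_of_le le_sup_right))
  have ha1 : a ≠ 1 := by
    rintro rfl
    rw [orderOf_one] at hao
    exact hp.one_lt.ne hao
  have h4 := le_sigW (θ := θ) (A := Subgroup.zpowers a ⊔ B)
    (le_sup_left (a := Subgroup.zpowers a) (b := B) (Subgroup.mem_zpowers a)) ha1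
  rw [Wbot _ hA h3] at h4
  exact le_bot_iff.mp h4

end rankgraph

end Cfsg.Agent.Lib.Helper31
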