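import Mathlib
import Cfsg.Prelude.Def_Balance
import Cfsg.Agent.Lib.Helper31.RankGraph
import Cfsg.Agent.Lib.Helper31.KBalance
import Cfsg.Agent.Lib.Helper22.Balance
import Cfsg.Agent.Lib.Helper22.PConstr
import Cfsg.Agent.Lib.Helper22.PComp

/-!
`F*(C_G(a)) = O_p(C_G(a))` on the reduced rank-2 commuting graph (helper31): the statement of
S1295, proved from the frozen statement of the solvable signalizer functor theorem (S0217).
-/

set_option autoImplicit false

namespace Cfsg.Agent.Lib.Helper31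

open Cfsg

universe u

section rankgraph2

variable {G : Type u} [Group G]

/-- Conjugation by `g` as an isomorphism `C_G(a) ≃* C_G(g a g⁻¹)`. -/
def conjCentralizerEquiv (a g : G) :
    ↥(Subgroup.centralizer ({a} : Set G)) ≃* ↥(Subgroup.centralizer ({g * a * g⁻¹} : Set G)) where
  toFun x := ⟨g * x * g⁻¹, by
    rw [Subgroup.mem_centralizer_singleton_iff]
    have h := Subgroup.mem_centralizer_singleton_iff.mp x.2
    calc g * ↑x * g⁻¹ * (g * a * g⁻¹) = g * (↑x * a) * g⁻¹ := by group
      _ = g * (a * ↑x) * g⁻¹ := by rw [h]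
      _ = g * a * g⁻¹ * (g * ↑x * g⁻¹) := by group⟩
  invFun y := ⟨g⁻¹ * y * g, by
    rw [Subgroup.mem_centralizer_singleton_iff]
    have h := Subgroup.mem_centralizer_singleton_iff.mp y.2
    calc g⁻¹ * ↑y * g * a = g⁻¹ * (↑y * (g * a * g⁻¹)) * g := by group
      _ = g⁻¹ * ((g * a * g⁻¹) * ↑y) * g := by rw [h]
      _ = a * (g⁻¹ * ↑y * g) := by group⟩
  left_inv x := by
    apply Subtype.ext
    simp [mul_assoc]
  right_inv y := by
    apply Subtype.ext
    simp [mul_assoc]
  map_mul' x y := by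
    apply Subtype.ext
    simp [mul_assoc]

theorem centralizerPPrimeCore_conj (p : ℕ) (a g : G) :
    centralizerPPrimeCore p (g * a * g⁻¹) =
      (centralizerPPrimeCore p a).map (MulAut.conj g).toMonoidHom := by
  have h := Cfsg.Agent.Lib.Helper22.pPrimeCore_map_equiv p (conjCentralizerEquiv a g)
  unfold centralizerPPrimeCore
  rw [← h, Subgroup.map_map, Subgroup.map_map]
  congr 1

/-- A group with trivial `p`-layer and trivial `p'`-core has trivial layer. -/
theorem layer_eq_bot_of_pLayer_eq_bot {Y : Type u} [Group Y] [Finite Y] {p : ℕ} [Fact p.Prime]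
    (hL : pLayer p Y = ⊥) (hO : pPrimeCore p Y = ⊥) : layer Y = ⊥ := by
  unfold layer
  rw [sSup_eq_bot]
  intro K hK
  by_cases hne : K.map (QuotientGroup.mk' (pPrimeCore p Y)) = ⊥
  · rw [Subgroup.map_eq_bot_iff, QuotientGroup.ker_mk', hO] at hne
    exact le_bot_iff.mp hne
  · have hKp := Cfsg.Agent.Lib.Helper22.isPComponent_of_isComponent hK hne
    have h1 : K ≤ pLayer p Y := le_sSup hKp
    rw [hL] at h1
    exact le_bot_iff.mp h1

/-- S1295 from the frozen statement of S0217. -/
theorem fstar_eq_pCore_of_ssft [Finite G] (p : ℕ) [hpf : Fact p.Prime] (hS : SSFTStatement G p)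
    (hO : Cfsg.pPrimeCore p G = ⊥) (hconn : Cfsg.IsRankGraphConnected p 2 G)
    (hL : ∀ a : G,
      (orderOf a = p ∧ ¬ Cfsg.PRankLE p 2 ↥(Subgroup.centralizer ({a} : Set G))) →
      Cfsg.pLayer p ↥(Subgroup.centralizer ({a} : Set G)) = ⊥ ∧
        Group.IsSolvable ↥(Cfsg.centralizerPPrimeCore p a))
    (a : G) (ha : (orderOf a = p ∧ ¬ Cfsg.PRankLE p 2 ↥(Subgroup.centralizer ({a} : Set G)))) :
    Cfsg.generalizedFittingSubgroup ↥(Subgroup.centralizer ({a} : Set G)) =
      Cfsg.pCore p ↥(Subgroup.centralizer ({a} : Set G)) := by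
  have hp := hpf.out
  have hθ : centralizerPPrimeCore p a = ⊥ :=
    theta_eq_bot_of_ssft p hS hO hconn (fun x => centralizerPPrimeCore p x)
      (fun x hx => ⟨centralizerPPrimeCore_le p x,
        (Nat.Prime.coprime_iff_not_dvd hp).mp (card_centralizerPPrimeCore_coprime p x).symm,
        (hL x hx).2⟩)
      (fun x g _ => centralizerPPrimeCore_conj p x g)
      (fun x y hx hy hxy =>
        Cfsg.Agent.Lib.Helper22.centralizerPPrimeCore_inf_le p x y hxy (k := 1)
          (by rw [pow_one, ← hx.1]; exact pow_orderOf_eq_one x) (hL y hy).1)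
      a ha
  have hO' : pPrimeCore p ↥(Subgroup.centralizer ({a} : Set G)) = ⊥ := by
    unfold centralizerPPrimeCore at hθ
    exact (Subgroup.map_eq_bot_iff_of_injective _ (Subgroup.subtype_injective _)).mp hθ
  have hE := layer_eq_bot_of_pLayer_eq_bot (hL a ha).1 hO'
  unfold generalizedFittingSubgroup
  rw [hE, bot_sup_eq, Cfsg.Agent.Lib.Helper22.fittingSubgroup_eq_pCore_of_pPrimeCore_eq_bot hO']

end rankgraph2

end Cfsg.Agent.Lib.Helper31
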